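import Mathlib
import Cfsg.Agent.H52.SoDefs
import Cfsg.Agent.H63.SnIfV

/-!
# SO-WID (S2943 team project, lead helper52): `W_K = [V, K]`

`V = Ω₁(Z(O₂(L)))`, `K ≤ L` a `J(T)`-component not centralizing `V`, `O₂(K) ≤ O₂(L)`,
`O₂(L) ≤ N(K)`.  Then `[V, K] = W_K = [Ω₁(Z(O₂(K))), K]`.
-/

set_option autoImplicit false

universe u

namespace Cfsg.Agent.H36.So

open Cfsg Cfsg.Agent.H52.Sn Cfsg.Agent.H63.Sn

open scoped commutatorElement

/-- The coprime-action identity: if `p = k² v k⁻²` and `q = k v k⁻¹` are commuting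
involutions and `k⁴ v k⁻⁴ = k v k⁻¹`, then `[[v, k²], k²] = [v, k]`. -/
theorem comm_sq_identity {X : Type*} [Group X] (v k : X)
    (hp : (k * k) * v * (k * k)⁻¹ * ((k * k) * v * (k * k)⁻¹) = 1)
    (hq : k * v * k⁻¹ * (k * v * k⁻¹) = 1)
    (hpq : (k * k) * v * (k * k)⁻¹ * (k * v * k⁻¹) = k * v * k⁻¹ * ((k * k) * v * (k * k)⁻¹))
    (h4 : (k * k) * ((k * k) * v * (k * k)⁻¹) * (k * k)⁻¹ = k * v * k⁻¹) :
    ⁅⁅v, k * k⁆, k * k⁆ = ⁅v, k⁆ := by
  set a := k * k with ha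
  set p := a * v * a⁻¹ with hpdef
  set q := k * v * k⁻¹ with hqdef
  have hpinv : p⁻¹ = p := inv_eq_of_mul_eq_one_left hp
  have hqinv : q⁻¹ = q := inv_eq_of_mul_eq_one_left hq
  have e1 : ⁅v, a⁆ = v * p := by
    rw [commutatorElement_def]
    have : v * a * v⁻¹ * a⁻¹ = v * (a * v * a⁻¹)⁻¹ := by group
    rw [this, ← hpdef, hpinv]
  have e2 : a * (v * p) * a⁻¹ = p * q := by
    have : a * (v * p) * a⁻¹ = (a * v * a⁻¹) * (a * p * a⁻¹) := by group
    rw [this, h4]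
  have e3 : ⁅v * p, a⁆ = v * q := by
    rw [commutatorElement_def]
    have : v * p * a * (v * p)⁻¹ * a⁻¹ = v * p * (a * (v * p) * a⁻¹)⁻¹ := by group
    rw [this, e2, mul_inv_rev, hpinv, hqinv]
    calc v * p * (q * p) = v * (p * q) * p := by group
      _ = v * (q * p) * p := by rw [hpq]
      _ = v * q * (p * p) := by group
      _ = v * q := by rw [hp, mul_one]
  have e4 : ⁅v, k⁆ = v * q := by
    rw [commutatorElement_def]
    have : v * k * v⁻¹ * k⁻¹ = v * (k * v * k⁻¹)⁻¹ := by group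
    rw [this, ← hqdef, hqinv]
  rw [e1, e3, e4]

/-- SO-WID: the exact piece statement. -/
theorem wid : Cfsg.Agent.H52.Sn.StWid.{u} := by
  intro G _ _ T L K M hJ hKL hF hOQ' hKC'
  -- notation inside `G`
  set Q := pCoreOf 2 L with hQdef
  set V := omegaCenterOf Q with hVdef
  set O := pCoreOf 2 K with hOdef
  have hQL : Q ≤ L := pCoreOf_le L
  have hVQ : V ≤ Q := fun x hx => (mem_omegaCenterOf _ hx).1
  have hVL : V ≤ L := hVQ.trans hQL
  have hOK : O ≤ K := pCoreOf_le K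
  -- `V` is abelian of exponent 2
  have hV2 : ∀ v ∈ V, v * v = 1 := by
    intro v hv
    have := (mem_omegaCenterOf _ hv).2.2
    rwa [pow_two] at this
  have hVc : ∀ v ∈ V, ∀ w ∈ V, v * w = w * v := by
    intro v hv w hw
    exact (Subgroup.mem_centralizer_iff.mp (mem_omegaCenterOf _ hw).2.1 v (mem_omegaCenterOf _ hv).1)
  -- `L` normalizes `V`
  have hVn : ∀ l ∈ L, ∀ v ∈ V, l * v * l⁻¹ ∈ V := by
    intro l hl v hv
    have hN := (Cfsg.Agent.H63.Sn.ifV (G := G) L).1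
    have := hN.conj_mem ⟨v, hVL hv⟩ (Subgroup.mem_subgroupOf.mpr hv) ⟨l, hl⟩
    exact Subgroup.mem_subgroupOf.mp this
  -- `V` normalizes `K`
  have hKn : ∀ v ∈ V, ∀ k ∈ K, v * k * v⁻¹ ∈ K := by
    intro v hv k hk
    obtain ⟨hvL, hv'⟩ := (mem_pCoreOf L).mp (hVQ hv)
    have hn := hF.hQK hv'
    have := (Subgroup.mem_normalizer_iff.mp hn ⟨k, hKL hk⟩).mp (Subgroup.mem_subgroupOf.mpr hk)
    exact Subgroup.mem_subgroupOf.mp this
  -- `O ≤ Q`
  have hOQ : O ≤ Q := by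
    intro x hx
    have hxL : x ∈ L := hKL (hOK hx)
    have : (⟨x, hxL⟩ : ↥L) ∈ (pCoreOf 2 K).subgroupOf L := Subgroup.mem_subgroupOf.mpr hx
    exact (mem_pCoreOf L).mpr ⟨hxL, hOQ' this⟩
  -- `O` centralizes `V`
  have hOC : O ≤ Subgroup.centralizer (V : Set G) := by
    intro x hx
    rw [Subgroup.mem_centralizer_iff]
    intro v hv
    exact ((Subgroup.mem_centralizer_iff.mp (mem_omegaCenterOf _ hv).2.1) x (hOQ hx)).symm
  -- `K` does not centralize `V`
  have hKC : ¬ K ≤ Subgroup.centralizer (V : Set G) := by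
    intro h
    apply hKC'
    intro k' hk'
    rw [Subgroup.mem_centralizer_iff]
    intro v' hv'
    have hk : (k' : G) ∈ K := Subgroup.mem_subgroupOf.mp hk'
    have hv : (v' : G) ∈ V := Subgroup.mem_subgroupOf.mp hv'
    have := (Subgroup.mem_centralizer_iff.mp (h hk)) (v' : G) hv
    exact Subtype.ext this
  have hO3 : O.relIndex K = 3 := hJ.2.2.1
  -- `K ∩ C(V) = O`
  have h9 : K ⊓ Subgroup.centralizer (V : Set G) ≤ O := by
    have hle1 : O ≤ K ⊓ Subgroup.centralizer (V : Set G) := le_inf hOK hOC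
    have hmul := Subgroup.relIndex_mul_relIndex O (K ⊓ Subgroup.centralizer (V : Set G)) K hle1
      inf_le_left
    rw [hO3] at hmul
    have h3 : Nat.Prime 3 := by norm_num
    rcases (Nat.dvd_prime h3).mp (Dvd.intro_left _ hmul) with h | h
    · exact absurd ((Subgroup.relIndex_eq_one.mp h).trans inf_le_right) hKC
    · rw [h] at hmul
      have h1 : O.relIndex (K ⊓ Subgroup.centralizer (V : Set G)) = 1 := by omega
      exact Subgroup.relIndex_eq_one.mp h1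
  -- cubes of elements of `K` lie in `O`
  have hk3 : ∀ k ∈ K, k ^ 3 ∈ O := by
    intro k hk
    have : (pCore 2 ↥K).Normal := Cfsg.Agent.H53.pCore_normal 2 ↥K
    have hidx : (pCore 2 ↥K).index = 3 := by
      have e : (pCoreOf 2 K).subgroupOf K = pCore 2 ↥K := by
        unfold pCoreOf
        exact Subgroup.comap_map_eq_self_of_injective (Subgroup.subtype_injective K) _
      have h := hO3
      unfold Subgroup.relIndex at h
      rwa [e] at h
    have h := Subgroup.pow_index_mem (pCore 2 ↥K) (⟨k, hk⟩ : ↥K)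
    rw [hidx] at h
    exact (mem_pCoreOf K).mpr ⟨pow_mem hk 3, h⟩
  -- the key identity
  have key : ∀ v ∈ V, ∀ k ∈ K, ⁅⁅v, k * k⁆, k * k⁆ = ⁅v, k⁆ := by
    intro v hv k hk
    have hkL : k ∈ L := hKL hk
    have hp : (k * k) * v * (k * k)⁻¹ ∈ V := hVn _ (mul_mem hkL hkL) v hv
    have hq : k * v * k⁻¹ ∈ V := hVn _ hkL v hv
    have hc : k ^ 3 * v = v * k ^ 3 :=
      ((Subgroup.mem_centralizer_iff.mp (hOC (hk3 k hk))) v hv).symm
    refine comm_sq_identity v k (hV2 _ hp) (hV2 _ hq) (hVc _ hp _ hq) ?_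
    have h3 : k ^ 3 = k * k * k := by rw [pow_succ, pow_two]
    rw [h3] at hc
    have e : (k * k) * ((k * k) * v * (k * k)⁻¹) * (k * k)⁻¹ =
        k * ((k * k * k) * v * (k * k * k)⁻¹) * k⁻¹ := by
      group
    rw [e, hc, mul_inv_cancel_right]
  have hwV : ∀ v ∈ V, ∀ k ∈ K, ⁅v, k⁆ ∈ V := by
    intro v hv k hk
    rw [commutatorElement_def]
    have : v * k * v⁻¹ * k⁻¹ = v * (k * v⁻¹ * k⁻¹) := by group
    rw [this]
    exact mul_mem hv (hVn k (hKL hk) _ (inv_mem hv))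
  have hwK : ∀ v ∈ V, ∀ k ∈ K, ⁅v, k⁆ ∈ K := by
    intro v hv k hk
    rw [commutatorElement_def]
    exact mul_mem (hKn v hv k hk) (inv_mem hk)
  -- `V ∩ K ≤ Ω₁(Z(O₂(K)))`
  have hZ : ∀ x ∈ V, x ∈ K → x ∈ omegaCenterOf O := by
    intro x hxV hxK
    refine omegaCenterOf_mem _ ?_ ?_ ?_
    · apply h9
      refine Subgroup.mem_inf.mpr ⟨hxK, ?_⟩
      rw [Subgroup.mem_centralizer_iff]
      intro v hv
      exact hVc v hv x hxV
    · rw [Subgroup.mem_centralizer_iff]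
      intro o ho
      exact (Subgroup.mem_centralizer_iff.mp (mem_omegaCenterOf _ hxV).2.1) o (hOQ ho)
    · rw [pow_two]; exact hV2 x hxV
  -- reduce the goal to `G`
  have hgoal : (⁅(omegaCenterOf (pCoreOf 2 L)).subgroupOf L, K.subgroupOf L⁆).map L.subtype
      = ⁅V, K⁆ := by
    rw [Subgroup.map_commutator, Subgroup.map_subgroupOf_eq_of_le hVL,
      Subgroup.map_subgroupOf_eq_of_le hKL]
  rw [hgoal]
  have hW : wOf K = ⁅omegaCenterOf O, K⁆ := rfl
  -- `[V, K] ≤ W_K`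
  have hle : ⁅V, K⁆ ≤ wOf K := by
    rw [hW, Subgroup.commutator_le]
    intro v hv k hk
    rw [← key v hv k hk]
    have hkk : k * k ∈ K := mul_mem hk hk
    exact Subgroup.commutator_mem_commutator
      (hZ _ (hwV v hv _ hkk) (hwK v hv _ hkk)) hkk
  -- `[V, K] ≠ 1`
  have hne : ⁅V, K⁆ ≠ ⊥ := by
    intro hbot
    apply hKC
    intro k hk
    rw [Subgroup.mem_centralizer_iff]
    intro v hv
    have h1 : ⁅v, k⁆ ∈ (⊥ : Subgroup G) := hbot ▸ Subgroup.commutator_mem_commutator hv hk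
    rw [Subgroup.mem_bot, commutatorElement_eq_one_iff_mul_comm] at h1
    exact h1
  -- the order of `[V, K]`
  have hcardW : Nat.card ↥(wOf K) = 4 := hJ.2.2.2.2.1
  have hdvd : Nat.card ↥⁅V, K⁆ ∣ 4 := hcardW ▸ Subgroup.card_dvd_of_le hle
  have hle4 : Nat.card ↥⁅V, K⁆ ≤ 4 := Nat.le_of_dvd (by norm_num) hdvd
  have h2 : Nat.card ↥⁅V, K⁆ ≠ 2 := by
    intro hc2
    obtain ⟨y, hy, huniq⟩ := (Nat.card_eq_two_iff' (1 : ↥⁅V, K⁆)).mp hc2
    have hsame : ∀ g ∈ ⁅V, K⁆, ∀ h ∈ ⁅V, K⁆, g ≠ 1 → h ≠ 1 → g = h := by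
      intro g hg h hh hg1 hh1
      have e1 := huniq ⟨g, hg⟩ (fun e => hg1 (congrArg Subtype.val e))
      have e2 := huniq ⟨h, hh⟩ (fun e => hh1 (congrArg Subtype.val e))
      exact congrArg Subtype.val (e1.trans e2.symm)
    apply hne
    rw [eq_bot_iff, Subgroup.commutator_le]
    intro v hv k hk
    rw [Subgroup.mem_bot, ← key v hv k hk]
    have hkk : k * k ∈ K := mul_mem hk hk
    set w := ⁅v, k * k⁆ with hw
    have hwU : w ∈ ⁅V, K⁆ := Subgroup.commutator_mem_commutator hv hkk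
    have hwV' : w ∈ V := hwV v hv _ hkk
    have hwwU : ⁅w, k * k⁆ ∈ ⁅V, K⁆ := Subgroup.commutator_mem_commutator hwV' hkk
    by_cases hw1 : w = 1
    · rw [hw1, commutatorElement_def]; group
    · have hinv : w⁻¹ ∈ ⁅V, K⁆ := inv_mem hwU
      have hconj : (k * k) * w⁻¹ * (k * k)⁻¹ ∈ ⁅V, K⁆ := by
        have : (k * k) * w⁻¹ * (k * k)⁻¹ = w⁻¹ * ⁅w, k * k⁆ := by
          rw [commutatorElement_def]; group
        rw [this]
        exact mul_mem hinv hwwU
      have hinv1 : w⁻¹ ≠ 1 := fun e => hw1 (inv_eq_one.mp e)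
      have hconj1 : (k * k) * w⁻¹ * (k * k)⁻¹ ≠ 1 := by
        intro e
        apply hinv1
        have : w⁻¹ = (k * k)⁻¹ * ((k * k) * w⁻¹ * (k * k)⁻¹) * (k * k) := by group
        rw [this, e]; group
      have heq := hsame _ hconj _ hinv hconj1 hinv1
      rw [commutatorElement_def]
      have : w * (k * k) * w⁻¹ * (k * k)⁻¹ = w * ((k * k) * w⁻¹ * (k * k)⁻¹) := by group
      rw [this, heq, mul_inv_cancel]
  have h1 : Nat.card ↥⁅V, K⁆ ≠ 1 := fun h => hne (Subgroup.card_eq_one.mp h)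
  have h0 : Nat.card ↥⁅V, K⁆ ≠ 0 := Nat.card_pos.ne'
  have h4 : Nat.card ↥⁅V, K⁆ = 4 := by
    interval_cases hn : Nat.card ↥⁅V, K⁆
    · exact absurd rfl h0
    · exact absurd rfl h1
    · exact absurd rfl h2
    · norm_num at hdvd
    · rfl
  exact Subgroup.eq_of_le_of_card_ge hle (by rw [hcardW, h4])

end Cfsg.Agent.H36.So

example : Cfsg.Agent.H52.Sn.StWid.{u} := Cfsg.Agent.H36.So.wid.{u}
#print axioms Cfsg.Agent.H36.So.wid
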