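import Mathlib
import Cfsg.Agent.H51.SyDefs

/-!
# SY-GENF1 (helper51's project SY for S2949)

Frattini argument in `J ⊔ C`: `T` a 2-subgroup of odd index, `C ⊴ X`, `J ≤ T`, and the normalizer
of every subgroup between `J` and `T` normalizes `J`.  Then `N_X(J ⊔ C) ≤ C ⊔ N_X(J)`.
-/

set_option autoImplicit false

universe u

namespace Cfsg.Agent.H36.Sy

open Cfsg Cfsg.Agent.H51.Sy

/-- `|H| · |K : H| = |K|` for `H ≤ K`. -/
theorem card_mul_relIndex_of_le {X : Type u} [Group X] {H K : Subgroup X} (h : H ≤ K) :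
    Nat.card ↥H * H.relIndex K = Nat.card ↥K := by
  have h1 := (H.subgroupOf K).card_mul_index
  have h2 : Nat.card ↥(H.subgroupOf K) = Nat.card ↥H :=
    Nat.card_congr (Subgroup.subgroupOfEquivOfLe h).toEquiv
  rw [h2] at h1
  exact h1

/-- For `C` normal: `|C : T ⊓ C| = |T C : T|`. -/
theorem relIndex_eq_relIndex_sup_of_normal {X : Type u} [Group X] [Finite X]
    (T C : Subgroup X) (hC : C.Normal) : T.relIndex C = T.relIndex (T ⊔ C) := by
  have hC' := hC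
  have e1 : Nat.card ↥(T ⊓ C) * C.relIndex T = Nat.card ↥T := by
    have := card_mul_relIndex_of_le (inf_le_left : T ⊓ C ≤ T)
    rwa [Subgroup.inf_relIndex_left] at this
  have e2 : Nat.card ↥(T ⊓ C) * T.relIndex C = Nat.card ↥C := by
    have := card_mul_relIndex_of_le (inf_le_right : T ⊓ C ≤ C)
    rwa [Subgroup.inf_relIndex_right] at this
  have e3 : Nat.card ↥C * C.relIndex T = Nat.card ↥(T ⊔ C) := by
    have := card_mul_relIndex_of_le (le_sup_right : C ≤ T ⊔ C)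
    rwa [Subgroup.relIndex_sup_right] at this
  have e4 : Nat.card ↥T * T.relIndex (T ⊔ C) = Nat.card ↥(T ⊔ C) :=
    card_mul_relIndex_of_le (le_sup_left : T ≤ T ⊔ C)
  have ha : 0 < Nat.card ↥(T ⊓ C) := Nat.card_pos
  have hb : 0 < C.relIndex T := by
    rcases Nat.eq_zero_or_pos (C.relIndex T) with h0 | h0
    · rw [h0, Nat.mul_zero] at e1
      exact absurd e1.symm (Nat.card_pos (α := ↥T)).ne'
    · exact h0
  have e5 : Nat.card ↥(T ⊓ C) * C.relIndex T * T.relIndex C =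
      Nat.card ↥(T ⊓ C) * C.relIndex T * T.relIndex (T ⊔ C) := by
    calc Nat.card ↥(T ⊓ C) * C.relIndex T * T.relIndex C
        = (Nat.card ↥(T ⊓ C) * T.relIndex C) * C.relIndex T := by ring
      _ = Nat.card ↥(T ⊔ C) := by rw [e2, e3]
      _ = Nat.card ↥(T ⊓ C) * C.relIndex T * T.relIndex (T ⊔ C) := by rw [e1, e4]
  exact Nat.eq_of_mul_eq_mul_left (Nat.mul_pos ha hb) e5

/-- Sylow conjugacy inside a subgroup `M`: two 2-subgroups of `M` of odd index in `M` are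
conjugate under an element of `M`. -/
theorem exists_conj_of_odd_relIndex {X : Type u} [Group X] [Finite X] (M S₁ S₂ : Subgroup X)
    (h1 : IsPGroup 2 ↥S₁) (h2 : IsPGroup 2 ↥S₂) (hle1 : S₁ ≤ M) (hle2 : S₂ ≤ M)
    (ho1 : Odd (S₁.relIndex M)) (ho2 : Odd (S₂.relIndex M)) :
    ∃ m ∈ M, ∀ x, x ∈ S₁ ↔ m * x * m⁻¹ ∈ S₂ := by
  have : Fact (Nat.Prime 2) := ⟨Nat.prime_two⟩
  have hp1 : IsPGroup 2 ↥(S₁.subgroupOf M) := h1.comap_subtype
  have hp2 : IsPGroup 2 ↥(S₂.subgroupOf M) := h2.comap_subtype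
  have hi1 : ¬ 2 ∣ (S₁.subgroupOf M).index := by
    have : (S₁.subgroupOf M).index = S₁.relIndex M := rfl
    rw [this]
    exact fun hd => (Nat.not_even_iff_odd.mpr ho1) (even_iff_two_dvd.mpr hd)
  have hi2 : ¬ 2 ∣ (S₂.subgroupOf M).index := by
    have : (S₂.subgroupOf M).index = S₂.relIndex M := rfl
    rw [this]
    exact fun hd => (Nat.not_even_iff_odd.mpr ho2) (even_iff_two_dvd.mpr hd)
  obtain ⟨m, hm⟩ := MulAction.exists_smul_eq ↥M (hp1.toSylow hi1) (hp2.toSylow hi2)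
  have key : ∀ y : ↥M, y ∈ S₁.subgroupOf M ↔ m * y * m⁻¹ ∈ S₂.subgroupOf M := by
    intro y
    have e2 : ((hp2.toSylow hi2 : Sylow 2 ↥M) : Subgroup ↥M) = S₂.subgroupOf M :=
      rfl
    have e1 : ((hp1.toSylow hi1 : Sylow 2 ↥M) : Subgroup ↥M) = S₁.subgroupOf M :=
      rfl
    rw [← e2, ← hm, Sylow.coe_subgroup_smul, Subgroup.mem_pointwise_smul_iff_inv_smul_mem, e1]
    have : (MulAut.conj m)⁻¹ • (m * y * m⁻¹) = y := by
      rw [← map_inv, MulAut.smul_def, MulAut.conj_apply]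
      group
    rw [this]
  refine ⟨m.1, m.2, fun x => ?_⟩
  constructor
  · intro hx
    have := (key ⟨x, hle1 hx⟩).mp (Subgroup.mem_subgroupOf.mpr hx)
    exact Subgroup.mem_subgroupOf.mp this
  · intro hx
    have hxM : x ∈ M := by
      have h3 : m.1 * x * m.1⁻¹ ∈ M := hle2 hx
      have h4 : m.1⁻¹ * (m.1 * x * m.1⁻¹) * m.1 ∈ M :=
        M.mul_mem (M.mul_mem (M.inv_mem m.2) h3) m.2
      have h5 : m.1⁻¹ * (m.1 * x * m.1⁻¹) * m.1 = x := by group
      rwa [h5] at h4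
    have := (key ⟨x, hxM⟩).mpr (Subgroup.mem_subgroupOf.mpr hx)
    exact Subgroup.mem_subgroupOf.mp this

theorem genF1 : StGenF1.{u} := by
  intro X _ _ T C J hT hTodd hC hJT hchar n hn
  have hJS : J ≤ T ⊓ (J ⊔ C) := le_inf hJT le_sup_left
  have hSM : T ⊓ (J ⊔ C) ≤ J ⊔ C := inf_le_right
  have hST : T ⊓ (J ⊔ C) ≤ T := inf_le_left
  have hSp : IsPGroup 2 ↥(T ⊓ (J ⊔ C) : Subgroup X) := hT.to_le hST
  have hSC : (T ⊓ (J ⊔ C)) ⊔ C = J ⊔ C :=
    le_antisymm (sup_le hSM le_sup_right) (sup_le_sup_right hJS C)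
  -- `S := T ⊓ JC` has odd index in `JC`
  have hodd : Odd ((T ⊓ (J ⊔ C)).relIndex (J ⊔ C)) := by
    have h1 : (T ⊓ (J ⊔ C)).relIndex C = (T ⊓ (J ⊔ C)).relIndex ((T ⊓ (J ⊔ C)) ⊔ C) :=
      relIndex_eq_relIndex_sup_of_normal _ C hC
    rw [hSC] at h1
    rw [← h1]
    have h2 : T.relIndex C = T.relIndex (T ⊔ C) := relIndex_eq_relIndex_sup_of_normal T C hC
    have h3 : T.relIndex (T ⊔ C) ∣ T.index := Subgroup.relIndex_dvd_index_of_le le_sup_left
    have h4 : Odd (T.relIndex C) := by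
      rw [h2]
      exact hTodd.of_dvd_nat h3
    have h5 : (T ⊓ (J ⊔ C)).relIndex C ∣ (T ⊓ C).relIndex C :=
      Subgroup.relIndex_dvd_of_le_left C (le_inf inf_le_left (inf_le_right.trans le_sup_right))
    rw [Subgroup.inf_relIndex_right] at h5
    exact h4.of_dvd_nat h5
  -- the conjugate of `S` under `n`
  have hnM : (J ⊔ C).map (MulAut.conj n).toMonoidHom = J ⊔ C :=
    Subgroup.mem_normalizer_iff_map_conj_eq.mp hn
  have hS2p : IsPGroup 2 ↥((T ⊓ (J ⊔ C)).map (MulAut.conj n).toMonoidHom) := hSp.map _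
  have hS2M : (T ⊓ (J ⊔ C)).map (MulAut.conj n).toMonoidHom ≤ J ⊔ C := by
    have := Subgroup.map_mono (f := (MulAut.conj n).toMonoidHom) hSM
    rwa [hnM] at this
  have hodd2 : Odd (((T ⊓ (J ⊔ C)).map (MulAut.conj n).toMonoidHom).relIndex (J ⊔ C)) := by
    have := Subgroup.relIndex_map_map_of_injective (f := (MulAut.conj n).toMonoidHom)
      (T ⊓ (J ⊔ C)) (J ⊔ C) (MulAut.conj n).injective
    rw [hnM] at this
    rw [this]
    exact hodd
  obtain ⟨m, hmM, hm⟩ := exists_conj_of_odd_relIndex (J ⊔ C) (T ⊓ (J ⊔ C))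
    ((T ⊓ (J ⊔ C)).map (MulAut.conj n).toMonoidHom) hSp hS2p hSM hS2M hodd hodd2
  -- `g := n⁻¹ m` normalizes `S`
  have hg : n⁻¹ * m ∈ Subgroup.normalizer ((T ⊓ (J ⊔ C) : Subgroup X) : Set X) := by
    rw [Subgroup.mem_normalizer_iff]
    intro x
    rw [hm x]
    constructor
    · intro hx
      obtain ⟨y, hy, hyx⟩ := Subgroup.mem_map.mp hx
      have e : n⁻¹ * m * x * (n⁻¹ * m)⁻¹ = y := by
        have : n * y * n⁻¹ = m * x * m⁻¹ := hyx
        have e2 : n⁻¹ * m * x * (n⁻¹ * m)⁻¹ = n⁻¹ * (m * x * m⁻¹) * n := by group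
        rw [e2, ← this]
        group
      rw [e]
      exact hy
    · intro hx
      refine Subgroup.mem_map.mpr ⟨_, hx, ?_⟩
      show n * (n⁻¹ * m * x * (n⁻¹ * m)⁻¹) * n⁻¹ = m * x * m⁻¹
      group
  have hgJ : n⁻¹ * m ∈ Subgroup.normalizer (J : Set X) := hchar _ hJS hST hg
  have hMle : J ⊔ C ≤ C ⊔ Subgroup.normalizer (J : Set X) :=
    sup_le (Subgroup.le_normalizer.trans le_sup_right) le_sup_left
  have hn' : n = m * (n⁻¹ * m)⁻¹ := by group
  rw [hn']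
  exact Subgroup.mul_mem _ (hMle hmM) (Subgroup.mem_sup_right (Subgroup.inv_mem _ hgJ))

example : Cfsg.Agent.H51.Sy.StGenF1.{u} := genF1.{u}

end Cfsg.Agent.H36.Sy

#print axioms Cfsg.Agent.H36.Sy.genF1
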