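import Mathlib
import Cfsg.Agent.H52.SrDefs
import Cfsg.Agent.H51.Local
import Cfsg.Agent.H14.Thompson

/-!
# SR-VNG (helper52's mini-project SR for S2951 / S2952)

`V = Ω₁(Z(O₂(L)))` is normalized by `L`, has exponent 2, lies in `O₂(L) ≤ L`, and `O₂(L)` is a
2-group.
-/

set_option autoImplicit false

universe u

namespace Cfsg.Agent.H36.Sr

open Cfsg Cfsg.Agent.H52.Sr

theorem omegaCenterOf_le_inf' {G : Type u} [Group G] (X : Subgroup G) :
    omegaCenterOf X ≤ X ⊓ Subgroup.centralizer (X : Set G) := by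
  unfold omegaCenterOf omegaOne
  rw [Subgroup.closure_le]
  intro x hx
  exact hx.1

theorem omegaCenterOf_sq' {G : Type u} [Group G] (Q : Subgroup G) :
    ∀ w ∈ omegaCenterOf Q, w * w = 1 := by
  intro w hw
  have key : w ∈ Q ⊓ Subgroup.centralizer (Q : Set G) ∧ w * w = 1 := by
    unfold omegaCenterOf omegaOne at hw
    induction hw using Subgroup.closure_induction with
    | mem x hx => exact ⟨hx.1, by rw [← pow_two]; exact hx.2⟩
    | one => exact ⟨Subgroup.one_mem _, by simp⟩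
    | mul x y _ _ hx hy =>
      refine ⟨Subgroup.mul_mem _ hx.1 hy.1, ?_⟩
      have hc : x * y = y * x :=
        Subgroup.mem_centralizer_iff.mp (Subgroup.mem_inf.mp hy.1).2 x (Subgroup.mem_inf.mp hx.1).1
      calc x * y * (x * y) = x * (y * x) * y := by group
        _ = x * (x * y) * y := by rw [hc]
        _ = (x * x) * (y * y) := by group
        _ = 1 := by rw [hx.2, hy.2, one_mul]
    | inv x _ hx =>
      refine ⟨Subgroup.inv_mem _ hx.1, ?_⟩
      have e : x⁻¹ * x⁻¹ = (x * x)⁻¹ := by group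
      rw [e, hx.2, inv_one]
  exact key.2

theorem vng : StVNG.{u} := by
  intro G _ _ L
  refine ⟨?_, omegaCenterOf_sq' _, (omegaCenterOf_le_inf' _).trans inf_le_left,
    Cfsg.Agent.H51.pCoreOf_le 2 L, Cfsg.Agent.H51.pCoreOf_isPGroup 2 L⟩
  intro l hl
  have h1 : l ∈ Subgroup.normalizer (pCoreOf 2 L : Set G) :=
    Cfsg.Agent.H51.le_normalizer_pCoreOf 2 L hl
  have h2 : (pCoreOf 2 L).map (MulAut.conj l).toMonoidHom = pCoreOf 2 L :=
    Subgroup.mem_normalizer_iff_map_conj_eq.mp h1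
  have h3 := Cfsg.Agent.H14.omegaOne_center_conj 2 l (pCoreOf 2 L)
  rw [h2] at h3
  exact Subgroup.mem_normalizer_iff_map_conj_eq.mpr h3

example : Cfsg.Agent.H52.Sr.StVNG.{u} := vng.{u}

end Cfsg.Agent.H36.Sr

#print axioms Cfsg.Agent.H36.Sr.vng
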