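import Mathlib
import Cfsg.Agent.H82.JxDefs
import Cfsg.Agent.H51.JcNORM

/-!
# JX-ACT (pieces JX-* of helper82): the action facts on `W_K`

`K = O₂(K)⟨x⟩`, `x` of order 3, `Q` a 2-group normalized by `K` and normalizing `K`,
`O₂(K) ≤ Q`, `a ∈ N(K)` with `a x a⁻¹ x ∈ Q`.  Then the ten facts `WFacts Q A (wOf K) a x` hold.
-/

set_option autoImplicit false

universe u

namespace Cfsg.Agent.H36.Jx

open Cfsg Cfsg.Agent.H82.Jx Cfsg.Agent.H51.Jc

open scoped commutatorElement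

/-- Rearrangement of a product of six elements under three commutation relations. -/
theorem rearr6 {G : Type*} [Group G] (a b c d e f : G) (h1 : d * b = b * d)
    (h2 : e * c = c * e) (h3 : d * c = c * d) :
    (a * d) * (b * e) * (c * f) = (a * b * c) * (d * e * f) := by
  calc (a * d) * (b * e) * (c * f) = a * (d * b) * e * c * f := by group
    _ = a * (b * d) * e * c * f := by rw [h1]
    _ = a * b * d * (e * c) * f := by group
    _ = a * b * d * (c * e) * f := by rw [h2]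
    _ = a * b * (d * c) * e * f := by group
    _ = a * b * (c * d) * e * f := by rw [h3]
    _ = (a * b * c) * (d * e * f) := by group

/-- JX-ACT: the exact piece statement. -/
theorem act : Cfsg.Agent.H82.Jx.StAct.{u} := by
  intro G _ _ Q A K a x hQ2 hKQ hQK hPQ haK hxK hx3 hax hKgen
  have hPK : pCoreOf 2 K ≤ K := (pCoreOf_facts K).1
  have hWU : wOf K ≤ omegaCenterOf (pCoreOf 2 K) := wOf_le_omegaCenterOf K
  have hUP : omegaCenterOf (pCoreOf 2 K) ≤ pCoreOf 2 K :=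
    (omegaCenterOf_le_inf (pCoreOf 2 K)).trans inf_le_left
  have hUC : omegaCenterOf (pCoreOf 2 K) ≤ Subgroup.centralizer (pCoreOf 2 K : Set G) :=
    (omegaCenterOf_le_inf (pCoreOf 2 K)).trans inf_le_right
  -- `U` is abelian of exponent 2, centralized by `P`
  have hUc : ∀ u ∈ omegaCenterOf (pCoreOf 2 K), ∀ v ∈ omegaCenterOf (pCoreOf 2 K),
      u * v = v * u := fun u hu v hv =>
    Subgroup.mem_centralizer_iff.mp (hUC hv) u (hUP hu)
  have hPU : ∀ p ∈ pCoreOf 2 K, ∀ u ∈ omegaCenterOf (pCoreOf 2 K), p * u * p⁻¹ = u := by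
    intro p hp u hu
    have h := Subgroup.mem_centralizer_iff.mp (hUC hu) p hp
    rw [h, mul_inv_cancel_right]
  have hU2 : ∀ u ∈ omegaCenterOf (pCoreOf 2 K), u * u = 1 := by
    intro u hu
    have h : u ∈ pCoreOf 2 K ⊓ Subgroup.centralizer (pCoreOf 2 K : Set G) ∧ u * u = 1 := by
      unfold omegaCenterOf omegaOne at hu
      induction hu using Subgroup.closure_induction with
      | mem y hy => exact ⟨hy.1, by rw [← pow_two]; exact hy.2⟩
      | one => exact ⟨one_mem _, one_mul 1⟩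
      | mul c d _ _ hc hd =>
        refine ⟨mul_mem hc.1 hd.1, ?_⟩
        have hcd : d * c = c * d := Subgroup.mem_centralizer_iff.mp hc.1.2 d hd.1.1
        calc c * d * (c * d) = c * (d * c) * d := by group
          _ = c * (c * d) * d := by rw [hcd]
          _ = (c * c) * (d * d) := by group
          _ = 1 := by rw [hc.2, hd.2, one_mul]
      | inv c _ hc =>
        refine ⟨inv_mem hc.1, ?_⟩
        rw [← mul_inv_rev, hc.2, inv_one]
    exact h.2
  have hUinv : ∀ u ∈ omegaCenterOf (pCoreOf 2 K), u⁻¹ = u := fun u hu =>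
    inv_eq_of_mul_eq_one_left (hU2 u hu)
  -- `N(K)` normalizes `U` and `W`
  have hUn : ∀ g ∈ Subgroup.normalizer (K : Set G), ∀ u ∈ omegaCenterOf (pCoreOf 2 K),
      g * u * g⁻¹ ∈ omegaCenterOf (pCoreOf 2 K) := fun g hg u hu =>
    conj_mem_omegaCenterOf hg hu
  have hWn : ∀ g ∈ Subgroup.normalizer (K : Set G), ∀ w ∈ wOf K, g * w * g⁻¹ ∈ wOf K :=
    fun g hg w hw => wOf_norm (K := K) (J := Subgroup.normalizer (K : Set G)) le_rfl g
      ((le_sup_right : Subgroup.normalizer (K : Set G) ≤ K ⊔ Subgroup.normalizer (K : Set G)) hg)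
      w hw
  have hKN : K ≤ Subgroup.normalizer (K : Set G) := Subgroup.le_normalizer
  have hxN : x ∈ Subgroup.normalizer (K : Set G) := hKN hxK
  -- `K ∩ Q ≤ P`
  have hKQP : K ⊓ Q ≤ pCoreOf 2 K := by
    apply Cfsg.Agent.H31.X.H54.le_pCoreOf inf_le_left
    · exact Cfsg.Agent.H31.X.H54.le_normalizer_inf' hKN hKQ
    · exact hQ2.to_le inf_le_right
  -- `x³ = 1`
  have hxxx : x * x * x = 1 := by
    have h := pow_orderOf_eq_one x
    rw [hx3, pow_succ, pow_two] at h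
    exact h
  -- the norm map
  let Nm : G → G := fun u => u * (x * u * x⁻¹) * (x * (x * u * x⁻¹) * x⁻¹)
  have hNm : ∀ u, Nm u = u * (x * u * x⁻¹) * (x * (x * u * x⁻¹) * x⁻¹) := fun u => rfl
  have hxU : ∀ u ∈ omegaCenterOf (pCoreOf 2 K), x * u * x⁻¹ ∈ omegaCenterOf (pCoreOf 2 K) :=
    fun u hu => hUn x hxN u hu
  have hNmU : ∀ u ∈ omegaCenterOf (pCoreOf 2 K), Nm u ∈ omegaCenterOf (pCoreOf 2 K) :=
    fun u hu => mul_mem (mul_mem hu (hxU u hu)) (hxU _ (hxU u hu))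
  have hNmul : ∀ u ∈ omegaCenterOf (pCoreOf 2 K), ∀ v ∈ omegaCenterOf (pCoreOf 2 K),
      Nm (u * v) = Nm u * Nm v := by
    intro u hu v hv
    rw [hNm, hNm, hNm]
    have e1 : x * (u * v) * x⁻¹ = (x * u * x⁻¹) * (x * v * x⁻¹) := by group
    have e2 : x * ((x * u * x⁻¹) * (x * v * x⁻¹)) * x⁻¹ =
        (x * (x * u * x⁻¹) * x⁻¹) * (x * (x * v * x⁻¹) * x⁻¹) := by group
    rw [e1, e2]
    exact rearr6 _ _ _ _ _ _ (hUc _ hv _ (hxU u hu))
      (hUc _ (hxU v hv) _ (hxU _ (hxU u hu))) (hUc _ hv _ (hxU _ (hxU u hu)))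
  have hNx : ∀ u ∈ omegaCenterOf (pCoreOf 2 K), Nm (x * u * x⁻¹) = Nm u := by
    intro u hu
    rw [hNm, hNm]
    have e : x * (x * (x * u * x⁻¹) * x⁻¹) * x⁻¹ = (x * x * x) * u * (x * x * x)⁻¹ := by group
    rw [e, hxxx, one_mul, inv_one, mul_one]
    -- (x u x⁻¹) * (x (x u x⁻¹) x⁻¹) * u = u * (x u x⁻¹) * (x (x u x⁻¹) x⁻¹)
    have c1 := hUc _ (hxU u hu) _ hu
    have c2 := hUc _ (hxU _ (hxU u hu)) _ hu
    calc x * u * x⁻¹ * (x * (x * u * x⁻¹) * x⁻¹) * u
        = x * u * x⁻¹ * ((x * (x * u * x⁻¹) * x⁻¹) * u) := by group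
      _ = x * u * x⁻¹ * (u * (x * (x * u * x⁻¹) * x⁻¹)) := by rw [c2]
      _ = (x * u * x⁻¹ * u) * (x * (x * u * x⁻¹) * x⁻¹) := by group
      _ = (u * (x * u * x⁻¹)) * (x * (x * u * x⁻¹) * x⁻¹) := by rw [c1]
  -- the subgroup of elements preserving the norm
  let S' : Subgroup G :=
    { carrier := {k | (∀ u ∈ omegaCenterOf (pCoreOf 2 K), k * u * k⁻¹ ∈ omegaCenterOf (pCoreOf 2 K)) ∧
        (∀ u ∈ omegaCenterOf (pCoreOf 2 K), k⁻¹ * u * k ∈ omegaCenterOf (pCoreOf 2 K)) ∧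
        ∀ u ∈ omegaCenterOf (pCoreOf 2 K), Nm (k * u * k⁻¹) = Nm u}
      mul_mem' := by
        rintro k k' ⟨h1, h2, h3⟩ ⟨h1', h2', h3'⟩
        refine ⟨fun u hu => ?_, fun u hu => ?_, fun u hu => ?_⟩
        · have e : k * k' * u * (k * k')⁻¹ = k * (k' * u * k'⁻¹) * k⁻¹ := by group
          rw [e]; exact h1 _ (h1' u hu)
        · have e : (k * k')⁻¹ * u * (k * k') = k'⁻¹ * (k⁻¹ * u * k) * k' := by group
          rw [e]; exact h2' _ (h2 u hu)
        · have e : k * k' * u * (k * k')⁻¹ = k * (k' * u * k'⁻¹) * k⁻¹ := by group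
          rw [e, h3 _ (h1' u hu), h3' u hu]
      one_mem' := by
        refine ⟨fun u hu => ?_, fun u hu => ?_, fun u hu => ?_⟩
        · simpa using hu
        · simpa using hu
        · simp
      inv_mem' := by
        rintro k ⟨h1, h2, h3⟩
        refine ⟨fun u hu => ?_, fun u hu => ?_, fun u hu => ?_⟩
        · rw [inv_inv]; exact h2 u hu
        · rw [inv_inv]; exact h1 u hu
        · rw [inv_inv]
          have h := h3 _ (h2 u hu)
          have e : k * (k⁻¹ * u * k) * k⁻¹ = u := by group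
          rw [e] at h
          exact h.symm }
  have hPS : pCoreOf 2 K ≤ S' := by
    intro p hp
    refine ⟨fun u hu => ?_, fun u hu => ?_, fun u hu => ?_⟩
    · rw [hPU p hp u hu]; exact hu
    · have h := hPU p⁻¹ (inv_mem hp) u hu
      rw [inv_inv] at h
      rw [h]; exact hu
    · rw [hPU p hp u hu]
  have hxS : x ∈ S' := by
    refine ⟨fun u hu => hxU u hu, fun u hu => ?_, fun u hu => hNx u hu⟩
    have h := hUn x⁻¹ (inv_mem hxN) u hu
    rw [inv_inv] at h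
    exact h
  have hKS : K ≤ S' := by
    rw [hKgen]
    exact sup_le hPS (Subgroup.zpowers_le.mpr hxS)
  -- the norm kills `W`
  have hNW' : ∀ w ∈ Subgroup.closure
      {g | ∃ g₁ ∈ omegaCenterOf (pCoreOf 2 K), ∃ g₂ ∈ K, ⁅g₁, g₂⁆ = g},
      w ∈ omegaCenterOf (pCoreOf 2 K) ∧ Nm w = 1 := by
    intro w hw'
    induction hw' using Subgroup.closure_induction with
    | mem y hy =>
      obtain ⟨u, hu, k, hk, rfl⟩ := hy
      have hkU : k * u * k⁻¹ ∈ omegaCenterOf (pCoreOf 2 K) := (hKS hk).1 u hu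
      have e : ⁅u, k⁆ = u * (k * u * k⁻¹) := by
        rw [commutatorElement_def]
        have : u * k * u⁻¹ * k⁻¹ = u * (k * u⁻¹ * k⁻¹) := by group
        rw [this, hUinv u hu]
      rw [e]
      refine ⟨mul_mem hu hkU, ?_⟩
      rw [hNmul u hu _ hkU, (hKS hk).2.2 u hu]
      exact hU2 _ (hNmU u hu)
    | one =>
      refine ⟨one_mem _, ?_⟩
      rw [hNm]; group
    | mul c d _ _ hc hd =>
      exact ⟨mul_mem hc.1 hd.1, by rw [hNmul c hc.1 d hd.1, hc.2, hd.2, one_mul]⟩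
    | inv c _ hc =>
      rw [hUinv c hc.1]
      exact hc
  have hNW : ∀ w ∈ wOf K, w ∈ omegaCenterOf (pCoreOf 2 K) ∧ Nm w = 1 := by
    intro w hw
    have hw' : w ∈ ⁅omegaCenterOf (pCoreOf 2 K), K⁆ := hw
    rw [Subgroup.commutator_def] at hw'
    exact hNW' w hw'
  refine
    { hWQ := hWU.trans (hUP.trans hPQ)
      hWc := fun u hu v hv => hUc u (hWU hu) v (hWU hv)
      hW2 := fun u hu => hU2 u (hWU hu)
      hxW := fun w hw => hWn x hxN w hw
      haW := fun w hw => hWn a haK w hw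
      hbW := fun b hb w hw => hWn b (hQK (Subgroup.mem_inf.mp hb).2) w hw
      hx3 := ?_
      hxf := ?_
      hax := ?_
      hbx := ?_ }
  · intro w _
    have e : x * (x * (x * w * x⁻¹) * x⁻¹) * x⁻¹ = (x * x * x) * w * (x * x * x)⁻¹ := by group
    rw [e, hxxx, one_mul, inv_one, mul_one]
  · intro w hw hfix
    have h := (hNW w hw).2
    rw [hNm, hfix, hfix, hU2 w (hWU hw), one_mul] at h
    exact h
  · intro w hw
    have hp : a * x * a⁻¹ * x ∈ pCoreOf 2 K := by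
      apply hKQP
      exact Subgroup.mem_inf.mpr
        ⟨K.mul_mem ((Subgroup.mem_normalizer_iff.mp haK x).mp hxK) hxK, hax⟩
    have hu : x⁻¹ * (a * w * a⁻¹) * x ∈ omegaCenterOf (pCoreOf 2 K) := by
      have h := hUn x⁻¹ (inv_mem hxN) _ (hWU (hWn a haK w hw))
      rw [inv_inv] at h
      exact h
    have e : a * (x * w * x⁻¹) * a⁻¹ =
        (a * x * a⁻¹ * x) * (x⁻¹ * (a * w * a⁻¹) * x) * (a * x * a⁻¹ * x)⁻¹ := by group
    rw [e, hPU _ hp _ hu]
  · intro b hb w hw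
    have hbQ : b ∈ Q := (Subgroup.mem_inf.mp hb).2
    have hbN : b ∈ Subgroup.normalizer (K : Set G) := hQK hbQ
    have hp : b * x * b⁻¹ * x⁻¹ ∈ pCoreOf 2 K := by
      apply hKQP
      have hq : b * x * b⁻¹ * x⁻¹ ∈ Q := by
        have e : b * x * b⁻¹ * x⁻¹ = b * (x * b⁻¹ * x⁻¹) := by group
        rw [e]
        exact Q.mul_mem hbQ ((Subgroup.mem_normalizer_iff.mp (hKQ hxK) b⁻¹).mp (Q.inv_mem hbQ))
      exact Subgroup.mem_inf.mpr
        ⟨K.mul_mem ((Subgroup.mem_normalizer_iff.mp hbN x).mp hxK) (K.inv_mem hxK), hq⟩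
    have hu : x * (b * w * b⁻¹) * x⁻¹ ∈ omegaCenterOf (pCoreOf 2 K) :=
      hUn x hxN _ (hWU (hWn b hbN w hw))
    have e : b * (x * w * x⁻¹) * b⁻¹ =
        (b * x * b⁻¹ * x⁻¹) * (x * (b * w * b⁻¹) * x⁻¹) * (b * x * b⁻¹ * x⁻¹)⁻¹ := by group
    rw [e, hPU _ hp _ hu]

end Cfsg.Agent.H36.Jx

example : Cfsg.Agent.H82.Jx.StAct.{u} := Cfsg.Agent.H36.Jx.act.{u}
#print axioms Cfsg.Agent.H36.Jx.act
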