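import Cfsg.Agent.H28.Bender
import Cfsg.Agent.H36.UniqueInvolution
import Cfsg.Prelude.Def_ClassificationK

set_option autoImplicit false

/-!
Helper lemmas of seat helper36: the generalized Fitting subgroup `Q` of the centralizer `C` of an
element `z`, when `Q` is a 2-group of symplectic type.
-/

namespace Cfsg.Agent.H36

open Cfsg

theorem mem_centralizer_singleton_iff {G : Type*} [Group G] (z c : G) :
    c ∈ Subgroup.centralizer ({z} : Set G) ↔ c * z = z * c := by
  rw [Subgroup.mem_centralizer_iff]
  constructor
  · intro h; exact (h z (Set.mem_singleton z)).symm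
  · intro h y hy
    rw [Set.mem_singleton_iff] at hy
    rw [hy]; exact h.symm

theorem self_mem_centralizer_singleton {G : Type*} [Group G] (z : G) :
    z ∈ Subgroup.centralizer ({z} : Set G) :=
  (mem_centralizer_singleton_iff z z).mpr rfl

/-- `z`, as an element of its centralizer `C`, is central in `C`. -/
theorem self_central_in_centralizer {G : Type*} [Group G] (z : G)
    (c : ↥(Subgroup.centralizer ({z} : Set G))) :
    c * (⟨z, self_mem_centralizer_singleton z⟩ : ↥(Subgroup.centralizer ({z} : Set G))) =
      ⟨z, self_mem_centralizer_singleton z⟩ * c :=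
  Subtype.ext ((mem_centralizer_singleton_iff z c).mp c.2)

open scoped IsMulCommutative in
/-- `z` lies in the generalized Fitting subgroup of its centralizer. -/
theorem self_mem_genFitting_centralizer {G : Type*} [Group G] (z : G) :
    (⟨z, self_mem_centralizer_singleton z⟩ : ↥(Subgroup.centralizer ({z} : Set G))) ∈
      generalizedFittingSubgroup ↥(Subgroup.centralizer ({z} : Set G)) := by
  set zC : ↥(Subgroup.centralizer ({z} : Set G)) := ⟨z, self_mem_centralizer_singleton z⟩ with hzC
  have hle : Subgroup.zpowers zC ≤ Subgroup.center ↥(Subgroup.centralizer ({z} : Set G)) := by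
    rw [Subgroup.zpowers_le, Subgroup.mem_center_iff]
    intro c
    exact self_central_in_centralizer z c
  have hnorm : (Subgroup.zpowers zC).Normal := by
    constructor
    intro n hn g
    have := Subgroup.mem_center_iff.mp (hle hn) g
    rw [this]
    simpa using hn
  have hnil : Group.IsNilpotent ↥(Subgroup.zpowers zC) := inferInstance
  have h1 : Subgroup.zpowers zC ≤ fittingSubgroup ↥(Subgroup.centralizer ({z} : Set G)) :=
    le_sSup ⟨hnorm, hnil⟩
  exact Cfsg.Agent.H28.fitting_le_genFitting (h1 (Subgroup.mem_zpowers zC))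

/-- In a 2-group `T` of symplectic type with a central involution `zT`, every nontrivial
characteristic abelian subgroup `B` contains `zT`, and `zT` is the only involution of `B`. -/
theorem symplectic_char_abelian_involution {T : Type*} [Group T] [Finite T]
    (hT : Cfsg.IsOfSymplecticType T) (zT : T) (hzT : orderOf zT = 2)
    (hzc : zT ∈ Subgroup.center T)
    (B : Subgroup T) (hBc : B.Characteristic) (hBa : IsMulCommutative ↥B) (hB : B ≠ ⊥) :
    zT ∈ B ∧ ∀ b ∈ B, orderOf b = 2 → b = zT := by
  obtain ⟨hQ2, hQcyc⟩ := hT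
  have hZcyc : IsCyclic ↥(Subgroup.center T) :=
    hQcyc (Subgroup.center T) inferInstance inferInstance
  have hBcyc : IsCyclic ↥B := hQcyc B hBc hBa
  have hB2 : IsPGroup 2 ↥B := hQ2.to_subgroup B
  obtain ⟨b₀, hb₀B, hb₀⟩ := exists_involution_of_nontrivial_two_group B hB2 hB
  have hBnormal : B.Normal := Subgroup.normal_of_characteristic B
  have huniqB : ∀ b ∈ B, orderOf b = 2 → b = b₀ := by
    intro b hb hb2
    have h1 : orderOf (⟨b, hb⟩ : ↥B) = 2 := by rw [Subgroup.orderOf_mk]; exact hb2
    have h2 : orderOf (⟨b₀, hb₀B⟩ : ↥B) = 2 := by rw [Subgroup.orderOf_mk]; exact hb₀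
    exact congrArg Subtype.val (cyclic_involution_unique h1 h2)
  have hb₀center : b₀ ∈ Subgroup.center T := by
    rw [Subgroup.mem_center_iff]
    intro q
    have hconj : q * b₀ * q⁻¹ ∈ B := hBnormal.conj_mem b₀ hb₀B q
    have hord : orderOf (q * b₀ * q⁻¹) = 2 := by
      have h3 : q * b₀ * q⁻¹ = MulAut.conj q b₀ := by simp
      rw [h3, MulEquiv.orderOf_eq]; exact hb₀
    have h4 := huniqB _ hconj hord
    have h5 := congrArg (fun t => t * q) h4
    simpa using h5
  have heq : b₀ = zT := by
    have h1 : orderOf (⟨b₀, hb₀center⟩ : ↥(Subgroup.center T)) = 2 := by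
      rw [Subgroup.orderOf_mk]; exact hb₀
    have h2 : orderOf (⟨zT, hzc⟩ : ↥(Subgroup.center T)) = 2 := by
      rw [Subgroup.orderOf_mk]; exact hzT
    exact congrArg Subtype.val (cyclic_involution_unique h1 h2)
  rw [← heq]
  exact ⟨hb₀B, huniqB⟩

/-- `z` as an element of `F*(C_G(z))`. -/
def zInGenFitting {G : Type*} [Group G] (z : G) :
    ↥(Cfsg.generalizedFittingSubgroup ↥(Subgroup.centralizer ({z} : Set G))) :=
  ⟨⟨z, self_mem_centralizer_singleton z⟩, self_mem_genFitting_centralizer z⟩

theorem zInGenFitting_coe {G : Type*} [Group G] (z : G) :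
    (((zInGenFitting z : ↥(Cfsg.generalizedFittingSubgroup
      ↥(Subgroup.centralizer ({z} : Set G)))) : ↥(Subgroup.centralizer ({z} : Set G))) : G) = z :=
  rfl

theorem zInGenFitting_orderOf {G : Type*} [Group G] (z : G) :
    orderOf (zInGenFitting z) = orderOf z := by
  unfold zInGenFitting
  rw [Subgroup.orderOf_mk, Subgroup.orderOf_mk]

theorem zInGenFitting_central {G : Type*} [Group G] (z : G) :
    zInGenFitting z ∈
      Subgroup.center ↥(Cfsg.generalizedFittingSubgroup ↥(Subgroup.centralizer ({z} : Set G))) := by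
  rw [Subgroup.mem_center_iff]
  intro q
  apply Subtype.ext
  exact self_central_in_centralizer z q.1

end Cfsg.Agent.H36
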