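import Mathlib
import Cfsg.Agent.H47.BG1312Defs

set_option autoImplicit false

/-!
# BG1312-SIG (piece of helper47's team project on B&G Lemma 13.12)

In the configuration `Side M N P Q p q`, `q ∉ σ(M)`: otherwise `Q` is a Sylow `q`-subgroup of
`G`, hence of `N`, with `N_G(Q) ≤ N`, so `q ∈ σ(M) ∩ σ(N)` and `M`, `N` are conjugate.
-/

namespace Cfsg.Agent.H36.BG1312

open Cfsg Subgroup Cfsg.Agent.H58.BG10 Cfsg.Agent.H47.BG1312
open scoped Pointwise

universe u

variable {G : Type u} [Group G]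

/-- **BG1312-SIG.** -/
theorem sig [Finite G] (h78b : Cfsg.Agent.H47.BG139.St1378b G) (h50 : St1350 G) :
    Cfsg.Agent.H47.BG1312.StSig G := by
  intro M N P Q p q hS hqM
  have : Fact q.Prime := ⟨hS.hq⟩
  obtain ⟨⟨hσM, -, -⟩, ⟨-, hidx⟩, -⟩ := h50 M hS.hM
  have h1 : ¬ q ∣ (sigmaCore M).index := hidx q hS.hq hqM
  have h2 : ¬ q ∣ M.index := fun h => h1 (h.trans (Subgroup.index_dvd_of_le hσM))
  have h3 : ¬ q ∣ Q.index := by
    rw [← Subgroup.relIndex_mul_index hS.hQM]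
    intro h
    rcases (Nat.Prime.dvd_mul hS.hq).mp h with h | h
    · exact hS.hQS h
    · exact h2 h
  have hQN : Q ≤ N := le_normalizer.trans hS.hNQ
  have h4 : ¬ q ∣ Q.relIndex N := fun h =>
    h3 (by rw [← Subgroup.relIndex_mul_index hQN]; exact dvd_mul_of_dvd_left h _)
  have hqN : q ∈ sigma N := by
    refine ⟨hS.hq, ?_, ?_⟩
    · have hc : q ∣ Nat.card Q := by
        obtain ⟨n, hn⟩ := IsPGroup.iff_card.mp hS.hQq
        have hn0 : n ≠ 0 := by
          rintro rfl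
          rw [pow_zero] at hn
          exact hS.hQ1 (Subgroup.card_eq_one.mp hn)
        rw [hn]; exact dvd_pow_self q hn0
      exact hc.trans (Subgroup.card_dvd_of_le hQN)
    · have hQ' : IsPGroup q (Q.subgroupOf N) := hS.hQq.comap_subtype
      have h4' : ¬ q ∣ (Q.subgroupOf N).index := h4
      refine ⟨hQ'.toSylow h4', ?_⟩
      have h5 : ((hQ'.toSylow h4' : Sylow q N) : Subgroup N) = Q.subgroupOf N :=
        IsPGroup.toSylow_coe hQ' h4'
      rw [h5, Subgroup.map_subgroupOf_eq_of_le hQN]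
      exact hS.hNQ
  obtain ⟨g, hg⟩ := h78b M N hS.hM hS.hN ⟨q, hqM, hqN⟩
  exact hS.hnc g hg

example {G : Type u} [Group G] [Finite G] (h78b : Cfsg.Agent.H47.BG139.St1378b G)
    (h50 : St1350 G) : Cfsg.Agent.H47.BG1312.StSig G := sig h78b h50

end Cfsg.Agent.H36.BG1312

#print axioms Cfsg.Agent.H36.BG1312.sig
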