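import Mathlib
import Cfsg.Agent.H47.BG1312Defs
import Cfsg.Agent.H57.BG129Defs
import Cfsg.Agent.H57.BG139InN

set_option autoImplicit false

/-!
# BG1312-TRANSPORT (piece of helper47's team project on B&G Lemma 13.12)

An element `x ∈ C_N(P)` of prime order outside `σ(N)` is conjugate, under `C_{N_σ}(P)`, into
any complement `E` of `N_σ` in `N` containing `P`.
-/

namespace Cfsg.Agent.H36.BG1312

open Cfsg Subgroup Cfsg.Agent.H58.BG10 Cfsg.Agent.H47.BG1312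
open scoped Pointwise

universe u

variable {G : Type u} [Group G]

/-- **BG1312-TRANSPORT.** -/
theorem transport [Finite G] (hSC : Cfsg.Agent.H57.BG12.StSigConj G) :
    Cfsg.Agent.H47.BG1312.StTransport G := by
  intro N E P p x hN hE hPE hp hPc hxN hxP hxo hxs
  obtain ⟨hEN, hσN, hinf, hprod⟩ := hE
  obtain ⟨hpp, hpσ, -, -, -⟩ := hp
  have hPN : P ≤ N := hPE.trans hEN
  have hYN : (zpowers x ⊔ P : Subgroup G) ≤ N := sup_le ((zpowers_le).mpr hxN) hPN
  have hxnorm : zpowers x ≤ normalizer (P : Set G) :=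
    (zpowers_le).mpr (Subgroup.centralizer_le_normalizer _ hxP)
  have hcard : Nat.card (zpowers x ⊔ P : Subgroup G) ∣ orderOf x * p := by
    have h := Cfsg.Agent.H57.BG139.card_sup_dvd (zpowers x) P hxnorm
    rwa [Nat.card_zpowers, hPc] at h
  have hYprimes : ∀ r : ℕ, r.Prime → r ∣ Nat.card (zpowers x ⊔ P : Subgroup G) →
      r ∉ sigma N := by
    intro r hr hrd
    rcases (Nat.Prime.dvd_mul hr).mp (hrd.trans hcard) with h | h
    · rw [(Nat.prime_dvd_prime_iff_eq hr hxo).mp h]; exact hxs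
    · rw [(Nat.prime_dvd_prime_iff_eq hr hpp).mp h]; exact hpσ
  obtain ⟨g, hgN, hgY⟩ := hSC N hN E ⟨hEN, hσN, hinf, hprod⟩ (zpowers x ⊔ P) hYN hYprimes
  obtain ⟨a, ha, b, hb, hgab⟩ := hprod g hgN
  have hconj : ∀ y ∈ (zpowers x ⊔ P : Subgroup G), b * y * b⁻¹ ∈ E := by
    intro y hy
    have h1 : g * y * g⁻¹ ∈ E := hgY (Subgroup.mem_map.mpr ⟨y, hy, rfl⟩)
    have h2 : b * y * b⁻¹ = a⁻¹ * (g * y * g⁻¹) * a := by
      rw [hgab]; group
    rw [h2]
    exact mul_mem (mul_mem (inv_mem ha) h1) ha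
  refine ⟨b⁻¹, inv_mem hb, ?_, ?_⟩
  · rw [Subgroup.mem_centralizer_iff]
    intro c hc
    have hcY : c ∈ (zpowers x ⊔ P : Subgroup G) := (le_sup_right : P ≤ zpowers x ⊔ P) hc
    have hw1 : b * c * b⁻¹ * c⁻¹ ∈ E := mul_mem (hconj c hcY) (inv_mem (hPE hc))
    have hw2 : b * c * b⁻¹ * c⁻¹ ∈ sigmaCore N := by
      have h3 : c * b⁻¹ * c⁻¹ ∈ sigmaCore N :=
        Cfsg.Agent.H47.BG12.conj_mem_sigmaCore (hPN hc) (inv_mem hb)
      have h4 : b * c * b⁻¹ * c⁻¹ = b * (c * b⁻¹ * c⁻¹) := by group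
      rw [h4]; exact mul_mem hb h3
    have hw : b * c * b⁻¹ * c⁻¹ = 1 := by
      have h5 : b * c * b⁻¹ * c⁻¹ ∈ E ⊓ sigmaCore N := ⟨hw1, hw2⟩
      rw [hinf] at h5
      exact Subgroup.mem_bot.mp h5
    have h6 : b * c * b⁻¹ = c := mul_inv_eq_one.mp hw
    calc c * b⁻¹ = b⁻¹ * (b * c * b⁻¹) := by group
      _ = b⁻¹ * c := by rw [h6]
  · rw [inv_inv]
    exact hconj x ((le_sup_left : zpowers x ≤ zpowers x ⊔ P) (mem_zpowers x))

example {G : Type u} [Group G] [Finite G] (hSC : Cfsg.Agent.H57.BG12.StSigConj G) :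
    Cfsg.Agent.H47.BG1312.StTransport G := transport hSC

end Cfsg.Agent.H36.BG1312

#print axioms Cfsg.Agent.H36.BG1312.transport
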