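import Cfsg.Agent.H79.BrDefs
import Cfsg.Agent.H4.BrauerBasic

/-!
# S4504-FIVE (helper36 for helper79): `p ≥ 5`
-/

set_option autoImplicit false

namespace Cfsg.Agent.H36.Br

open Cfsg

universe u

/-- **S4504-FIVE**: `p ≥ 5`. -/
theorem five : Cfsg.Agent.H79.Br.StFive.{u} := by
  intro G _ _ p _ P hP hnn χ hχ hfaith hdeg
  by_contra hlt
  push Not at hlt
  have hp := (Fact.out : p.Prime)
  have hp2 := hp.two_le
  have hd : charDegree χ = 1 := by
    have : p ≠ 4 := by
      rintro rfl
      norm_num at hp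
    omega
  have h1 : χ 1 = 1 := by
    obtain ⟨n, ρ, rfl⟩ := hχ
    have h : ρ.character 1 = (n : ℂ) := by rw [Representation.char_one]; simp
    have hn : charDegree ρ.character = n := by unfold charDegree; rw [h]; simp
    rw [h, ← hn, hd]; simp
  obtain ⟨lam, rfl⟩ := Cfsg.Agent.H4.exists_hom_of_linear hχ h1
  have hinj : Function.Injective lam := by
    rw [injective_iff_map_eq_one]
    intro g hg
    apply hfaith
    change ((lam g : ℂˣ) : ℂ) = ((lam 1 : ℂˣ) : ℂ)
    rw [hg, map_one]
  have hcomm : ∀ a b : G, a * b = b * a := by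
    intro a b
    apply hinj
    rw [map_mul, map_mul, mul_comm]
  apply hnn
  exact ⟨fun n hn g => by rw [hcomm g n, mul_inv_cancel_right]; exact hn⟩

example : Cfsg.Agent.H79.Br.StFive.{u} := five

end Cfsg.Agent.H36.Br

#print axioms Cfsg.Agent.H36.Br.five
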