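import Cfsg.Agent.H79.BrDefs
import Cfsg.Agent.H4.BrauerBasic

/-!
# S4504-NOLIN (helper36 for helper79): `G` is perfect and has no non-principal linear character
-/

set_option autoImplicit false

namespace Cfsg.Agent.H36.Br

open Cfsg

universe u

/-- **S4504-NOLIN**: `G` is perfect and has no non-principal linear character. -/
theorem noLin : Cfsg.Agent.H79.Br.StNoLin.{u} := by
  intro G _ _ p _ P hP hK hex
  obtain ⟨n, hn, x, hx, hnx⟩ := hex
  -- the commutator `c = n x n⁻¹ x⁻¹` is a non-trivial element of `P ⊓ commutator G`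
  set c : G := n * x * n⁻¹ * x⁻¹ with hc
  have hc1 : c ≠ 1 := by
    intro h
    apply hnx
    have h2 : n * x * n⁻¹ = x := by
      rw [hc, mul_inv_eq_one] at h
      exact h
    calc n * x = n * x * n⁻¹ * n := by group
      _ = x * n := by rw [h2]
  have hcP : c ∈ (P : Subgroup G) := by
    have h1 : n * x * n⁻¹ ∈ (P : Subgroup G) :=
      (Subgroup.mem_normalizer_iff.1 hn x).1 hx
    exact (P : Subgroup G).mul_mem h1 ((P : Subgroup G).inv_mem hx)
  have hcC : c ∈ commutator G := by
    rw [commutator_def]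
    exact Subgroup.commutator_mem_commutator (Subgroup.mem_top n) (Subgroup.mem_top x)
  have hPle : (P : Subgroup G) ≤ commutator G := by
    intro y hy
    have htop : Subgroup.zpowers (⟨c, hcP⟩ : (P : Subgroup G)) = ⊤ :=
      zpowers_eq_top_of_prime_card hP (fun h => hc1 (congrArg Subtype.val h))
    have hmem : (⟨y, hy⟩ : (P : Subgroup G)) ∈ Subgroup.zpowers (⟨c, hcP⟩ : (P : Subgroup G)) := by
      rw [htop]; exact Subgroup.mem_top _
    obtain ⟨k, hk⟩ := Subgroup.mem_zpowers_iff.1 hmem
    have hk' : c ^ k = y := by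
      have := congrArg Subtype.val hk
      simpa using this
    rw [← hk']
    exact (commutator G).zpow_mem hcC k
  have htop : commutator G = ⊤ := hK (commutator G) inferInstance hPle
  refine ⟨htop, fun ψ hψ => ?_⟩
  have hψc : IsCharacter G ψ.1 := by
    obtain ⟨m, ρ, -, h⟩ := ψ.2
    exact ⟨m, ρ, h⟩
  have h1 : ψ.1 1 = 1 := by
    obtain ⟨m, ρ, h⟩ := hψc
    have h' : ρ.character 1 = (m : ℂ) := by rw [Representation.char_one]; simp
    have hm : charDegree ψ.1 = m := by unfold charDegree; rw [← h, h']; simp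
    rw [← h, h', ← hm, hψ]; simp
  obtain ⟨lam, hlam⟩ := Cfsg.Agent.H4.exists_hom_of_linear hψc h1
  funext g
  have hg : g ∈ lam.ker := by
    apply Abelianization.commutator_subset_ker lam
    rw [htop]; exact Subgroup.mem_top g
  rw [hlam]
  change ((lam g : ℂˣ) : ℂ) = 1
  rw [MonoidHom.mem_ker.1 hg]; rfl

example : Cfsg.Agent.H79.Br.StNoLin.{u} := noLin

end Cfsg.Agent.H36.Br

#print axioms Cfsg.Agent.H36.Br.noLin
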