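import Cfsg.Agent.H1.Coprime
import Cfsg.Agent.H2.Coprime
import Mathlib.GroupTheory.SemidirectProduct
import Mathlib.GroupTheory.SpecificGroups.ZGroup

set_option autoImplicit false

/-!
Helper lemmas of seat helper36 (towards S4117): coprime action in external form
(`MulDistribMulAction A G`), obtained from the internal form (helper1, helper2) through the
semidirect product, and the case of a group all of whose Sylow subgroups are cyclic.
-/

namespace Cfsg.Agent.H36

open scoped commutatorElement

section External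

/-- The semidirect product of an action of `A` on `G` by automorphisms. -/
abbrev ActSD (G A : Type*) [Group G] [Group A] [MulDistribMulAction A G] : Type _ :=
  G ⋊[MulDistribMulAction.toMulAut A G] A

/-- The embedding of `G` in `ActSD G A`. -/
abbrev sdInl (G A : Type*) [Group G] [Group A] [MulDistribMulAction A G] : G →* ActSD G A :=
  SemidirectProduct.inl

/-- The embedding of `A` in `ActSD G A`. -/
abbrev sdInr (G A : Type*) [Group G] [Group A] [MulDistribMulAction A G] : A →* ActSD G A :=
  SemidirectProduct.inr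

variable {G A : Type*} [Group G] [Group A] [MulDistribMulAction A G]

/-- The set of generators `g⁻¹ * a • g` of `[V, A]`, for `g` in a subgroup `V`. -/
def actComm (A : Type*) [Group A] {G : Type*} [Group G] [MulDistribMulAction A G] (V : Subgroup G) :
    Set G := {y : G | ∃ (a : A) (g : G), g ∈ V ∧ y = g⁻¹ * a • g}

/-- In the semidirect product, `inr a` conjugates `inl g` to `inl (a • g)`. -/
theorem sdInr_mul_sdInl_mul_sdInr_inv (a : A) (g : G) :
    sdInr G A a * sdInl G A g * (sdInr G A a)⁻¹ = sdInl G A (a • g) := by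
  rw [← map_inv]
  exact (SemidirectProduct.inl_aut (φ := MulDistribMulAction.toMulAut A G) a g).symm

/-- A commutator `⁅inl g, inr a⁆` in the semidirect product. -/
theorem commutator_sdInl_sdInr (a : A) (g : G) :
    ⁅sdInl G A g, sdInr G A a⁆ = sdInl G A (g * a • g⁻¹) := by
  have h := sdInr_mul_sdInl_mul_sdInr_inv a g⁻¹
  rw [commutatorElement_def, map_mul, ← h, map_inv]
  simp only [mul_assoc]

/-- `⁅V.map inl, range inr⁆` lies in the image of the closure of `actComm A V`. -/
theorem commutator_map_sdInl_le (V : Subgroup G) :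
    ⁅V.map (sdInl G A), (sdInr G A).range⁆ ≤ (Subgroup.closure (actComm A V)).map (sdInl G A) := by
  rw [Subgroup.commutator_le]
  rintro _ ⟨g, hg, rfl⟩ _ ⟨a, rfl⟩
  rw [commutator_sdInl_sdInr]
  refine ⟨_, Subgroup.subset_closure ⟨a, g⁻¹, V.inv_mem hg, ?_⟩, rfl⟩
  rw [inv_inv]

/-- The image of the closure of `actComm A V` lies in `⁅V.map inl, range inr⁆`. -/
theorem map_sdInl_closure_le (V : Subgroup G) :
    (Subgroup.closure (actComm A V)).map (sdInl G A) ≤ ⁅V.map (sdInl G A), (sdInr G A).range⁆ := by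
  rw [Subgroup.map_le_iff_le_comap, Subgroup.closure_le]
  rintro _ ⟨a, g, hg, rfl⟩
  rw [SetLike.mem_coe, Subgroup.mem_comap]
  have h := commutator_sdInl_sdInr a g⁻¹
  rw [inv_inv] at h
  rw [← h]
  exact Subgroup.commutator_mem_commutator ⟨g⁻¹, V.inv_mem hg, rfl⟩ ⟨a, rfl⟩

/-- An element `inl f` centralizes `range inr` iff `f` is a fixed point. -/
theorem sdInl_mem_centralizer_range_sdInr (f : G) :
    sdInl G A f ∈ Subgroup.centralizer ((sdInr G A).range : Set (ActSD G A)) ↔
      ∀ a : A, a • f = f := by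
  rw [Subgroup.mem_centralizer_iff]
  constructor
  · intro h a
    have h1 := h (sdInr G A a) ⟨a, rfl⟩
    have h2 := sdInr_mul_sdInl_mul_sdInr_inv a f
    rw [h1, mul_assoc, mul_inv_cancel, mul_one] at h2
    exact (SemidirectProduct.inl_injective h2).symm
  · rintro h _ ⟨a, rfl⟩
    have h2 := sdInr_mul_sdInl_mul_sdInr_inv a f
    rw [h a] at h2
    have h4 := congrArg (fun x => x * sdInr G A a) h2
    simpa [mul_assoc] using h4

end External

section Coprime

variable {G A : Type*} [Group G] [Group A] [MulDistribMulAction A G] [Finite G] [Finite A]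

set_option linter.unusedSectionVars false

theorem finite_actSD : Finite (ActSD G A) :=
  Finite.of_equiv (G × A) SemidirectProduct.equivProd.symm

theorem card_range_sdInl : Nat.card (sdInl G A).range = Nat.card G :=
  Nat.card_congr (MonoidHom.ofInjective SemidirectProduct.inl_injective).symm.toEquiv

theorem card_range_sdInr : Nat.card (sdInr G A).range = Nat.card A :=
  Nat.card_congr (MonoidHom.ofInjective SemidirectProduct.inr_injective).symm.toEquiv

/-- Coprime action, external form: every element of `G` is the product of a fixed point and an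
element of `[G, A]`. -/
theorem exists_fixed_mul_actComm (hcop : (Nat.card A).Coprime (Nat.card G)) [Group.IsSolvable G]
    (g : G) : ∃ f : G, (∀ a : A, a • f = f) ∧
      ∃ k ∈ Subgroup.closure (actComm A (⊤ : Subgroup G)), g = f * k := by
  have hfin : Finite (ActSD G A) := finite_actSD
  have hnorm : (sdInl G A).range.Normal := by
    have h : (sdInl G A).range = (SemidirectProduct.rightHom : ActSD G A →* A).ker :=
      SemidirectProduct.range_inl_eq_ker_rightHom
    rw [h]; infer_instance
  have hAK : (sdInr G A).range ≤ Subgroup.normalizer ((sdInl G A).range : Set (ActSD G A)) := by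
    rw [Subgroup.normalizer_eq_top]; exact le_top
  have hsolv : Group.IsSolvable (sdInl G A).range :=
    Group.isSolvable_of_surjective (f := (sdInl G A).rangeRestrict) (MonoidHom.rangeRestrict_surjective _)
  obtain ⟨c, hc, x, hx, hcx⟩ := Cfsg.Agent.H1.exists_centralizer_mul_commutator (sdInr G A).range
    (sdInl G A).range hAK (by rw [card_range_sdInl, card_range_sdInr]; exact hcop) (Or.inr hsolv)
    (sdInl G A g) ⟨g, rfl⟩
  obtain ⟨⟨f, rfl⟩, hcC⟩ := hc
  have hx' : x ∈ (Subgroup.closure (actComm A (⊤ : Subgroup G))).map (sdInl G A) := by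
    apply commutator_map_sdInl_le (A := A) (⊤ : Subgroup G)
    rwa [← MonoidHom.range_eq_map]
  obtain ⟨k, hk, rfl⟩ := hx'
  refine ⟨f, (sdInl_mem_centralizer_range_sdInr f).mp hcC, k, hk, ?_⟩
  rw [← map_mul] at hcx
  exact SemidirectProduct.inl_injective hcx

/-- Abelian coprime action, external form: a fixed point lying in `[V, A]`, for an abelian
invariant subgroup `V`, is trivial. -/
theorem fixed_actComm_eq_one (hcop : (Nat.card A).Coprime (Nat.card G)) (V : Subgroup G)
    [IsMulCommutative V] (hV : ∀ (a : A), ∀ v ∈ V, a • v ∈ V) (f : G) (hfV : f ∈ V)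
    (hf : ∀ a : A, a • f = f) (hfc : f ∈ Subgroup.closure (actComm A V)) : f = 1 := by
  have hfin : Finite (ActSD G A) := finite_actSD
  have hAV : (sdInr G A).range ≤
      Subgroup.normalizer ((V.map (sdInl G A) : Subgroup (ActSD G A)) : Set (ActSD G A)) := by
    rw [Subgroup.le_normalizer_iff]
    rintro _ ⟨a, rfl⟩ _ ⟨v, hv, rfl⟩
    rw [sdInr_mul_sdInl_mul_sdInr_inv]
    exact ⟨a • v, hV a v hv, rfl⟩
  have hcop' : (Nat.card (sdInr G A).range).Coprime (Nat.card (V.map (sdInl G A))) := by
    rw [card_range_sdInr, Subgroup.card_map_of_injective SemidirectProduct.inl_injective]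
    exact Nat.Coprime.coprime_dvd_right (Subgroup.card_subgroup_dvd_card V) hcop
  have h := (Cfsg.Agent.H2.coprime_abelian_decomp hAV hcop').1
  have hmem : sdInl G A f ∈ (V.map (sdInl G A) ⊓
      Subgroup.centralizer ((sdInr G A).range : Set (ActSD G A))) ⊓
      ⁅V.map (sdInl G A), (sdInr G A).range⁆ :=
    ⟨⟨⟨f, hfV, rfl⟩, (sdInl_mem_centralizer_range_sdInr f).mpr hf⟩,
      map_sdInl_closure_le V ⟨f, hfc, rfl⟩⟩
  rw [h, Subgroup.mem_bot] at hmem
  exact SemidirectProduct.inl_injective (hmem.trans (map_one _).symm)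

end Coprime

section Invariance

variable {G A : Type*} [Group G] [Group A] [MulDistribMulAction A G]

/-- `[G, A]` is normal in `G`. -/
theorem closure_actComm_top_normal :
    (Subgroup.closure (actComm A (⊤ : Subgroup G))).Normal := by
  have key : ∀ s ∈ actComm A (⊤ : Subgroup G), ∀ x : G,
      x * s * x⁻¹ ∈ Subgroup.closure (actComm A (⊤ : Subgroup G)) := by
    rintro _ ⟨a, g, -, rfl⟩ x
    have h1 : (g * x⁻¹)⁻¹ * a • (g * x⁻¹) ∈ Subgroup.closure (actComm A (⊤ : Subgroup G)) :=
      Subgroup.subset_closure ⟨a, g * x⁻¹, Subgroup.mem_top _, rfl⟩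
    have h2 : (x⁻¹)⁻¹ * a • x⁻¹ ∈ Subgroup.closure (actComm A (⊤ : Subgroup G)) :=
      Subgroup.subset_closure ⟨a, x⁻¹, Subgroup.mem_top _, rfl⟩
    have h3 := Subgroup.mul_mem _ h1 (Subgroup.inv_mem _ h2)
    convert h3 using 1
    simp only [smul_mul', smul_inv']
    group
  constructor
  intro n hn x
  induction hn using Subgroup.closure_induction with
  | mem s hs => exact key s hs x
  | one => simp
  | mul a b _ _ ha hb =>
    have := Subgroup.mul_mem _ ha hb
    convert this using 1; group
  | inv a _ ha =>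
    have := Subgroup.inv_mem _ ha
    convert this using 1; group

/-- `[G, A]` is `A`-invariant. -/
theorem smul_mem_closure_actComm_top (b : A) {x : G}
    (hx : x ∈ Subgroup.closure (actComm A (⊤ : Subgroup G))) :
    b • x ∈ Subgroup.closure (actComm A (⊤ : Subgroup G)) := by
  have h : (Subgroup.closure (actComm A (⊤ : Subgroup G))).map
      (MulDistribMulAction.toMonoidHom G b) ≤ Subgroup.closure (actComm A (⊤ : Subgroup G)) := by
    rw [MonoidHom.map_closure, Subgroup.closure_le]
    rintro _ ⟨_, ⟨a, g, -, rfl⟩, rfl⟩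
    refine Subgroup.subset_closure ⟨b * a * b⁻¹, b • g, Subgroup.mem_top _, ?_⟩
    simp [smul_mul', smul_inv', mul_smul]
  exact h ⟨x, hx, rfl⟩

end Invariance

section ZGroup

variable {G A : Type*} [Group G] [Group A] [MulDistribMulAction A G] [Finite G] [Finite A]

/-- With coprime orders and `G` solvable, `[G, A]` is generated by the `k⁻¹ * a • k` with
`k ∈ [G, A]`. -/
theorem closure_actComm_top_le (hcop : (Nat.card A).Coprime (Nat.card G)) [Group.IsSolvable G] :
    Subgroup.closure (actComm A (⊤ : Subgroup G)) ≤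
      Subgroup.closure (actComm A (Subgroup.closure (actComm A (⊤ : Subgroup G)))) := by
  rw [Subgroup.closure_le]
  rintro _ ⟨a, g, -, rfl⟩
  obtain ⟨f, hf, k, hk, rfl⟩ := exists_fixed_mul_actComm hcop g
  refine Subgroup.subset_closure ⟨a, k, hk, ?_⟩
  rw [smul_mul', hf a]; group

/-- Coprime action on a group with cyclic Sylow subgroups: `[G, A]` is cyclic. -/
theorem isCyclic_closure_actComm_top (hcop : (Nat.card A).Coprime (Nat.card G)) [IsZGroup G] :
    IsCyclic (Subgroup.closure (actComm A (⊤ : Subgroup G))) := by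
  obtain ⟨K, hK⟩ : ∃ K, K = Subgroup.closure (actComm A (⊤ : Subgroup G)) := ⟨_, rfl⟩
  rw [← hK]
  have hKinv : ∀ (a : A), ∀ k ∈ K, a • k ∈ K := by
    rw [hK]; exact fun a k hk => smul_mem_closure_actComm_top a hk
  have hKle : K ≤ Subgroup.closure (actComm A K) := by
    rw [hK]; exact closure_actComm_top_le hcop
  have hDK : ⁅K, K⁆ ≤ K := Subgroup.commutator_le_self K
  have hDcyc : IsCyclic ↥⁅K, K⁆ := by
    have h1 : IsCyclic (commutator K) := IsZGroup.isCyclic_commutator K
    rw [← Subgroup.map_subtype_commutator]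
    exact isCyclic_of_surjective _
      ((commutator K).equivMapOfInjective K.subtype (Subgroup.subtype_injective K)).surjective
  obtain ⟨⟨d₀, hd₀⟩, hgen⟩ := hDcyc.exists_generator
  have hgen' : ∀ d ∈ ⁅K, K⁆, ∃ j : ℤ, d₀ ^ j = d := by
    intro d hd
    obtain ⟨j, hj⟩ := Subgroup.mem_zpowers_iff.mp (hgen ⟨d, hd⟩)
    exact ⟨j, by simpa using congrArg Subtype.val hj⟩
  have hDinv : ∀ (a : A), ∀ d ∈ ⁅K, K⁆, a • d ∈ ⁅K, K⁆ := by
    intro a d hd
    have h : (⁅K, K⁆).map (MulDistribMulAction.toMonoidHom G a) ≤ ⁅K, K⁆ := by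
      rw [Subgroup.map_commutator]
      have hm : K.map (MulDistribMulAction.toMonoidHom G a) ≤ K := by
        rintro _ ⟨k, hk, rfl⟩; exact hKinv a k hk
      exact Subgroup.commutator_mono hm hm
    exact h ⟨d, hd, rfl⟩
  have hDnorm : ∀ k ∈ K, ∀ d ∈ ⁅K, K⁆, k * d * k⁻¹ ∈ ⁅K, K⁆ := by
    intro k hk d hd
    have h1 : ⁅k, d⁆ ∈ ⁅K, K⁆ := Subgroup.commutator_mem_commutator hk (hDK hd)
    have h2 := Subgroup.mul_mem _ h1 hd
    rw [commutatorElement_def] at h2
    convert h2 using 1; group
  have hkey : ∀ k ∈ K, ∀ (a : A), ∀ d ∈ ⁅K, K⁆, (a • k) * d * (a • k)⁻¹ = k * d * k⁻¹ := by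
    intro k hk a d hd
    obtain ⟨v, hv⟩ := hgen' _ (hDnorm k hk d₀ hd₀)
    have hpow : ∀ e ∈ ⁅K, K⁆, k * e * k⁻¹ = e ^ v := by
      intro e he
      obtain ⟨j, rfl⟩ := hgen' e he
      rw [← conj_zpow, ← hv, ← zpow_mul, ← zpow_mul, mul_comm]
    have hd' : a⁻¹ • d ∈ ⁅K, K⁆ := hDinv a⁻¹ d hd
    have h1 : a • (k * (a⁻¹ • d) * k⁻¹) = (a • k) * d * (a • k)⁻¹ := by
      rw [smul_mul', smul_mul', smul_inv', smul_inv_smul]
    rw [← h1, hpow _ hd', smul_zpow', smul_inv_smul, hpow d hd]
  have hcent : K ≤ Subgroup.centralizer ((⁅K, K⁆ : Subgroup G) : Set G) := by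
    refine hKle.trans ?_
    rw [Subgroup.closure_le]
    rintro _ ⟨a, k, hk, rfl⟩
    rw [SetLike.mem_coe, Subgroup.mem_centralizer_iff]
    intro d hd
    have h := hkey k hk a d hd
    have h2 : a • k * d = k * d * k⁻¹ * a • k := by rw [← h]; group
    rw [mul_assoc, h2]; group
  have hnil : Group.IsNilpotent K := by
    apply Subgroup.isNilpotent_of_ker_le_center (Abelianization.of : K →* Abelianization K)
    rw [Abelianization.ker_of]
    intro x hx
    rw [Subgroup.mem_center_iff]
    intro g
    have hxD : (x : G) ∈ ⁅K, K⁆ := by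
      rw [← Subgroup.map_subtype_commutator]; exact ⟨x, hx, rfl⟩
    have := (Subgroup.mem_centralizer_iff.mp (hcent g.2)) (x : G) hxD
    exact Subtype.ext this.symm
  infer_instance

/-- Coprime action on a group with cyclic Sylow subgroups: `[G, A] ∩ C_G(A) = 1`. -/
theorem closure_actComm_top_inf_fixed (hcop : (Nat.card A).Coprime (Nat.card G)) [IsZGroup G] :
    Subgroup.closure (actComm A (⊤ : Subgroup G)) ⊓ FixedPoints.subgroup A G = ⊥ := by
  have hcyc := isCyclic_closure_actComm_top (A := A) (G := G) hcop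
  rw [eq_bot_iff]
  rintro f ⟨hfK, hfF⟩
  rw [Subgroup.mem_bot]
  exact fixed_actComm_eq_one hcop _ (fun a k hk => smul_mem_closure_actComm_top a hk) f hfK hfF
    (closure_actComm_top_le hcop hfK)

/-- Coprime action on a solvable group: `[G, A] C_G(A) = G`. -/
theorem closure_actComm_top_sup_fixed (hcop : (Nat.card A).Coprime (Nat.card G))
    [Group.IsSolvable G] :
    Subgroup.closure (actComm A (⊤ : Subgroup G)) ⊔ FixedPoints.subgroup A G = ⊤ := by
  rw [eq_top_iff]
  intro g _
  obtain ⟨f, hf, k, hk, rfl⟩ := exists_fixed_mul_actComm hcop g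
  exact Subgroup.mul_mem _ (Subgroup.mem_sup_right hf) (Subgroup.mem_sup_left hk)

end ZGroup

section Hall

/-- In a finite cyclic group, an element `z` with `z ^ p = 1` lies in the subgroup generated by
any element `y` of order `p`. -/
theorem mem_zpowers_of_pow_eq_one_of_isCyclic {α : Type*} [Group α] [Finite α] [IsCyclic α]
    {p : ℕ} (hp : 0 < p) {y z : α} (hy : orderOf y = p) (hz : z ^ p = 1) :
    z ∈ Subgroup.zpowers y := by
  classical
  have := Fintype.ofFinite α
  have hle := IsCyclic.card_pow_eq_one_le (α := α) hp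
  have hsub : (Finset.range p).image (fun i => y ^ i) ⊆
      Finset.univ.filter (fun a : α => a ^ p = 1) := by
    intro a ha
    obtain ⟨i, -, rfl⟩ := Finset.mem_image.mp ha
    rw [Finset.mem_filter]
    refine ⟨Finset.mem_univ _, ?_⟩
    rw [← pow_mul, mul_comm, pow_mul, ← hy, pow_orderOf_eq_one, one_pow]
  have hcard : ((Finset.range p).image (fun i => y ^ i)).card = p := by
    rw [Finset.card_image_of_injOn, Finset.card_range]
    intro i hi j hj hij
    have hi' : i < orderOf y := by rw [hy]; exact Finset.mem_range.mp hi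
    have hj' : j < orderOf y := by rw [hy]; exact Finset.mem_range.mp hj
    exact pow_injOn_Iio_orderOf hi' hj' hij
  have heq := Finset.eq_of_subset_of_card_le hsub (by rw [hcard]; exact hle)
  have hzmem : z ∈ Finset.univ.filter (fun a : α => a ^ p = 1) := by simp [hz]
  rw [← heq] at hzmem
  obtain ⟨i, -, rfl⟩ := Finset.mem_image.mp hzmem
  exact Subgroup.npow_mem_zpowers y i

/-- Subgroup form of `mem_zpowers_of_pow_eq_one_of_isCyclic`. -/
theorem mem_zpowers_of_pow_eq_one_of_isCyclic_subgroup {G : Type*} [Group G] [Finite G]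
    (C : Subgroup G) [IsCyclic C] {p : ℕ} (hp : 0 < p) {y z : G} (hyC : y ∈ C) (hzC : z ∈ C)
    (hy : orderOf y = p) (hz : z ^ p = 1) : z ∈ Subgroup.zpowers y := by
  have h := mem_zpowers_of_pow_eq_one_of_isCyclic (α := C) hp (y := ⟨y, hyC⟩) (z := ⟨z, hzC⟩)
    (by rw [Subgroup.orderOf_mk]; exact hy) (Subtype.ext (by simpa using hz))
  obtain ⟨i, hi⟩ := Subgroup.mem_zpowers_iff.mp h
  exact Subgroup.mem_zpowers_iff.mpr ⟨i, by simpa using congrArg Subtype.val hi⟩

variable {G A : Type*} [Group G] [Group A] [MulDistribMulAction A G] [Finite G] [Finite A]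

/-- Coprime action on a group with cyclic Sylow subgroups: `|C_G(A)|` and `|[G, A]|` are
coprime. -/
theorem coprime_card_fixed_card_actComm (hcop : (Nat.card A).Coprime (Nat.card G)) [IsZGroup G] :
    (Nat.card (FixedPoints.subgroup A G)).Coprime
      (Nat.card (Subgroup.closure (actComm A (⊤ : Subgroup G)))) := by
  obtain ⟨K, hK⟩ : ∃ K, K = Subgroup.closure (actComm A (⊤ : Subgroup G)) := ⟨_, rfl⟩
  have hcyc : IsCyclic K := by rw [hK]; exact isCyclic_closure_actComm_top hcop
  have hnorm : K.Normal := by rw [hK]; exact closure_actComm_top_normal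
  have hinf : K ⊓ FixedPoints.subgroup A G = ⊥ := by
    rw [hK]; exact closure_actComm_top_inf_fixed hcop
  rw [← hK]
  apply Nat.coprime_of_dvd
  intro p hp hpF hpK
  have : Fact p.Prime := ⟨hp⟩
  obtain ⟨⟨x, hxF⟩, hx⟩ := exists_prime_orderOf_dvd_card' p hpF
  obtain ⟨⟨y, hyK⟩, hy⟩ := exists_prime_orderOf_dvd_card' p hpK
  rw [Subgroup.orderOf_mk] at hx hy
  have hyn : (Subgroup.zpowers y).Normal := by
    constructor
    intro n hn g
    obtain ⟨i, rfl⟩ := Subgroup.mem_zpowers_iff.mp hn
    have h1 : g * y * g⁻¹ ∈ Subgroup.zpowers y := by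
      apply mem_zpowers_of_pow_eq_one_of_isCyclic_subgroup K hp.pos hyK (hnorm.conj_mem y hyK g) hy
      rw [conj_pow, ← hy, pow_orderOf_eq_one]; group
    rw [← conj_zpow]
    exact Subgroup.zpow_mem _ h1 i
  have hP : IsPGroup p ↥(Subgroup.zpowers x ⊔ Subgroup.zpowers y) := by
    apply IsPGroup.to_sup_of_normal_right
    · exact IsPGroup.of_card (n := 1) (by rw [Nat.card_zpowers, hx, pow_one])
    · exact IsPGroup.of_card (n := 1) (by rw [Nat.card_zpowers, hy, pow_one])
  have : IsCyclic ↥(Subgroup.zpowers x ⊔ Subgroup.zpowers y) := IsPGroup.isCyclic_of_isZGroup hP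
  have hxy : x ∈ Subgroup.zpowers y := by
    apply mem_zpowers_of_pow_eq_one_of_isCyclic_subgroup
      (Subgroup.zpowers x ⊔ Subgroup.zpowers y) hp.pos
      (Subgroup.mem_sup_right (Subgroup.mem_zpowers y))
      (Subgroup.mem_sup_left (Subgroup.mem_zpowers x)) hy
    rw [← hx, pow_orderOf_eq_one]
  have hxK : x ∈ K := (Subgroup.zpowers_le.mpr hyK) hxy
  have hx1 : x ∈ K ⊓ FixedPoints.subgroup A G := ⟨hxK, hxF⟩
  rw [hinf, Subgroup.mem_bot] at hx1
  rw [hx1, orderOf_one] at hx
  exact hp.one_lt.ne hx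

/-- Coprime action on a group with cyclic Sylow subgroups: `|G| = |C_G(A)| |[G, A]|`. -/
theorem card_eq_card_fixed_mul_card_actComm (hcop : (Nat.card A).Coprime (Nat.card G))
    [IsZGroup G] :
    Nat.card G = Nat.card (FixedPoints.subgroup A G) *
      Nat.card (Subgroup.closure (actComm A (⊤ : Subgroup G))) := by
  have hnorm := closure_actComm_top_normal (G := G) (A := A)
  have h := Cfsg.Agent.H1.card_sup_of_le_normalizer (FixedPoints.subgroup A G)
    (Subgroup.closure (actComm A (⊤ : Subgroup G)))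
    (by rw [Subgroup.normalizer_eq_top]; exact le_top)
    (by rw [inf_comm]; exact closure_actComm_top_inf_fixed hcop)
  rw [sup_comm, closure_actComm_top_sup_fixed hcop, Subgroup.card_top] at h
  exact h

end Hall

end Cfsg.Agent.H36
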