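import Cfsg.Agent.H75.ESDefs

/-!
# S6002-CYC5 (helper36 for helper75): 5-subgroups of `GL_4(p)`, `p ≡ ±2 (mod 5)`, are cyclic
-/

set_option autoImplicit false

namespace Cfsg.Agent.H36.ES

open Matrix Cfsg.Agent.H75.ES

universe u

/-- ES-CYC5: the 5-subgroups of `GL_4(p)`, `p ≡ ±2 (mod 5)`, are cyclic. -/
theorem cyc5 (hirr : Cfsg.Agent.H75.ES.StIrr5.{u}) : Cfsg.Agent.H75.ES.StCyc5.{u} := by
  intro F _ _ p _ hF hp S hS
  classical
  by_cases hbot : S = ⊥
  · subst hbot; infer_instance
  have hfinG : Finite (G4 F) := inferInstance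
  have hnt : Nontrivial S := (Subgroup.nontrivial_iff_ne_bot S).2 hbot
  have h5 : Fact (Nat.Prime 5) := ⟨by norm_num⟩
  -- a central element of order five
  have hcnt : Nontrivial (Subgroup.center S) := hS.center_nontrivial
  have hcp : IsPGroup 5 (Subgroup.center S) := hS.to_subgroup (Subgroup.center S)
  have h5dvd : 5 ∣ Nat.card (Subgroup.center S) := by
    rcases hcp.card_eq_or_dvd with h | h
    · exfalso
      have : Subsingleton (Subgroup.center S) := (Nat.card_eq_one_iff_unique.1 h).1
      exact not_subsingleton _ this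
    · exact h
  obtain ⟨w0, hw0⟩ := exists_prime_orderOf_dvd_card' 5 h5dvd
  set w : G4 F := ((w0 : S) : G4 F) with hw
  have hw5 : orderOf w = 5 := by
    rw [hw, Subgroup.orderOf_coe, Subgroup.orderOf_coe]; exact hw0
  have hcomm : ∀ s : S, (w : M4 F) * ((s : G4 F) : M4 F) = ((s : G4 F) : M4 F) * (w : M4 F) := by
    intro s
    have h1 : s * (w0 : S) = (w0 : S) * s := (Subgroup.mem_center_iff.1 w0.2) s
    have h2 : (s : G4 F) * w = w * (s : G4 F) := by
      rw [hw]
      exact_mod_cast congrArg Subtype.val h1
    have h3 := congrArg Units.val h2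
    simp only [Units.val_mul] at h3
    exact h3.symm
  -- kernels of elements commuting with `w`
  have hker : ∀ a : M4 F, (w : M4 F) * a = a * (w : M4 F) → a ≠ 0 →
      LinearMap.ker (Matrix.toLin' a) = ⊥ := by
    intro a hcomm ha
    have hW : (LinearMap.ker (Matrix.toLin' a)).map (Matrix.toLin' (w : M4 F)) ≤
        LinearMap.ker (Matrix.toLin' a) := by
      rw [Submodule.map_le_iff_le_comap]
      intro v hv
      rw [Submodule.mem_comap, LinearMap.mem_ker]
      rw [LinearMap.mem_ker] at hv
      rw [Matrix.toLin'_apply] at hv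
      rw [Matrix.toLin'_apply, Matrix.toLin'_apply, Matrix.mulVec_mulVec, ← hcomm,
        ← Matrix.mulVec_mulVec, hv, Matrix.mulVec_zero]
    rcases hirr F p hF hp w hw5 _ hW with h | h
    · exact h
    · exfalso
      apply ha
      have h0 : Matrix.toLin' a = 0 := LinearMap.ker_eq_top.1 h
      have := congrArg LinearMap.toMatrix' h0
      simpa using this
  -- the centraliser ring
  set D : Subring (M4 F) := Subring.centralizer ({(w : M4 F)} : Set (M4 F)) with hD
  have hDmem : ∀ a : D, (w : M4 F) * (a : M4 F) = (a : M4 F) * (w : M4 F) := by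
    intro a
    have h : (a : M4 F) ∈ Subring.centralizer ({(w : M4 F)} : Set (M4 F)) := a.2
    exact (Subring.mem_centralizer_iff.1 h) _ rfl
  have hfinD : Finite D := inferInstance
  have hnzd : NoZeroDivisors D := ⟨by
    intro a b hab
    by_cases ha : a = 0
    · exact Or.inl ha
    · right
      have ha' : (a : M4 F) ≠ 0 := fun h => ha (Subtype.ext h)
      have hk := hker a.1 (hDmem a) ha'
      have hab' : (a : M4 F) * (b : M4 F) = 0 := by
        have := congrArg Subtype.val hab
        simpa using this
      apply Subtype.ext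
      have hinj : Function.Injective (Matrix.toLin' (a : M4 F)) := LinearMap.ker_eq_bot.1 hk
      have h0 : Matrix.toLin' (b : M4 F) = 0 := by
        apply LinearMap.ext
        intro v
        apply hinj
        rw [← LinearMap.comp_apply, ← Matrix.toLin'_mul, hab']; simp
      have := congrArg LinearMap.toMatrix' h0
      simpa using this⟩
  have hdom : IsDomain D := NoZeroDivisors.to_isDomain D
  have hfield := Finite.isDomain_to_isField D
  -- the embedding of `S` into `D`
  let f : S →* D :=
    { toFun := fun s => ⟨((s : G4 F) : M4 F), by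
        rw [hD, Subring.mem_centralizer_iff]
        intro g hg
        rw [Set.mem_singleton_iff] at hg
        rw [hg]; exact hcomm s⟩
      map_one' := by
        apply Subtype.ext
        simp
      map_mul' := by
        intro s t
        apply Subtype.ext
        simp }
  have hf : Function.Injective f := by
    intro s t hst
    have h1 : ((s : G4 F) : M4 F) = ((t : G4 F) : M4 F) := congrArg Subtype.val hst
    exact Subtype.ext (Units.ext h1)
  let _ : CommRing D := { (inferInstance : Ring D) with mul_comm := hfield.mul_comm }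
  exact isCyclic_of_injective_ringHom f hf

example (hirr : Cfsg.Agent.H75.ES.StIrr5.{u}) : Cfsg.Agent.H75.ES.StCyc5.{u} := cyc5 hirr

end Cfsg.Agent.H36.ES

#print axioms Cfsg.Agent.H36.ES.cyc5
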