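import Cfsg.Agent.H75.ESDefs

/-!
# S6002-GRP1 (helper36 for helper75): second centre of order at least 8 forces `G / Z(G)` abelian
-/

set_option autoImplicit false

namespace Cfsg.Agent.H36.ES

open Cfsg.Agent.H75.ES

open scoped commutatorElement

universe u

/-- ES-GRP1: if the second centre has order at least 8 then `G / Z(G)` is abelian. -/
theorem grp1 : Cfsg.Agent.H75.ES.StGrp1.{u} := by
  intro G _ _ hG h8 x y
  classical
  have h2p : Fact (Nat.Prime 2) := ⟨Nat.prime_two⟩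
  set Z : Subgroup G := Subgroup.center G with hZ
  set W : Subgroup G := Subgroup.upperCentralSeries G 2 with hW
  have hcardZ : Nat.card Z = 2 := hG.center
  have hWmem : ∀ u ∈ W, ∀ g : G, ⁅u, g⁆ ∈ Z := by
    intro u hu g
    have := (Subgroup.mem_upperCentralSeries_succ_iff (n := 1)).1 hu g
    rwa [Subgroup.upperCentralSeries_one] at this
  -- Step A: `W` is not commutative
  have hnc : ∃ a ∈ W, ∃ b ∈ W, a * b ≠ b * a := by
    by_contra hcon
    push Not at hcon
    have hcm : IsMulCommutative W := ⟨⟨fun s t => Subtype.ext (hcon s.1 s.2 t.1 t.2)⟩⟩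
    have hcyc : IsCyclic W := hG.char W inferInstance hcm
    obtain ⟨g, hg⟩ := hcyc.exists_generator
    have ho : orderOf g = Nat.card W := orderOf_eq_card_of_forall_mem_zpowers hg
    have h4 : g ^ 4 = 1 := Subtype.ext (by simpa using hG.exp g.1)
    have : orderOf g ≤ 4 := orderOf_le_of_pow_eq_one (by norm_num) h4
    omega
  obtain ⟨a, ha, b, hb, hab⟩ := hnc
  -- the commutator homomorphisms
  have hκmem : ∀ u ∈ W, ∀ g : G, ⁅g, u⁆ ∈ Z := by
    intro u hu g
    rw [← commutatorElement_inv]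
    exact Z.inv_mem (hWmem u hu g)
  have hκmul : ∀ u ∈ W, ∀ g h : G, ⁅g * h, u⁆ = ⁅g, u⁆ * ⁅h, u⁆ := by
    intro u hu g h
    have hc : ⁅h, u⁆ ∈ Z := hκmem u hu h
    have hc' := Subgroup.mem_center_iff.1 hc
    calc ⁅g * h, u⁆ = g * ⁅h, u⁆ * u * g⁻¹ * u⁻¹ := by
          simp only [commutatorElement_def]; group
      _ = ⁅h, u⁆ * g * u * g⁻¹ * u⁻¹ := by rw [hc' g]
      _ = ⁅h, u⁆ * ⁅g, u⁆ := by simp only [commutatorElement_def]; group
      _ = ⁅g, u⁆ * ⁅h, u⁆ := (hc' _).symm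
  let κ : ∀ u, u ∈ W → (G →* Z) := fun u hu =>
    { toFun := fun g => ⟨⁅g, u⁆, hκmem u hu g⟩
      map_one' := Subtype.ext (by simp)
      map_mul' := fun g h => Subtype.ext (hκmul u hu g h) }
  let Φ : G →* Z × Z := (κ a ha).prod (κ b hb)
  have huniq : ∀ s t : Z, s ≠ 1 → t ≠ 1 → s = t := by
    intro s t hs ht
    exact ((Nat.card_eq_two_iff' (1 : Z)).1 hcardZ).unique hs ht
  have hΦa1 : (Φ a).1 = 1 := Subtype.ext (commutatorElement_self a)
  have hΦa2 : (Φ a).2 ≠ 1 := by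
    intro h
    have h1 : ⁅a, b⁆ = 1 := congrArg Subtype.val h
    exact hab (commutatorElement_eq_one_iff_commute.1 h1)
  have hΦb1 : (Φ b).1 ≠ 1 := by
    intro h
    have h1 : ⁅b, a⁆ = 1 := congrArg Subtype.val h
    exact hab (commutatorElement_eq_one_iff_commute.1 h1).symm
  have hΦb2 : (Φ b).2 = 1 := Subtype.ext (commutatorElement_self b)
  have hsurjW : ∀ p : Z × Z, ∃ u ∈ W, Φ u = p := by
    rintro ⟨s, t⟩
    by_cases hs : s = 1 <;> by_cases ht : t = 1
    · exact ⟨1, W.one_mem, by rw [map_one, hs, ht]; rfl⟩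
    · exact ⟨a, ha, Prod.ext (by rw [hΦa1, hs]) (huniq _ _ hΦa2 ht)⟩
    · exact ⟨b, hb, Prod.ext (huniq _ _ hΦb1 hs) (by rw [hΦb2, ht])⟩
    · refine ⟨a * b, W.mul_mem ha hb, ?_⟩
      rw [map_mul]
      refine Prod.ext ?_ ?_
      · rw [Prod.fst_mul, hΦa1, one_mul]; exact huniq _ _ hΦb1 hs
      · rw [Prod.snd_mul, hΦb2, mul_one]; exact huniq _ _ hΦa2 ht
  have hsurj : Function.Surjective Φ := fun p => by
    obtain ⟨u, _, hu⟩ := hsurjW p
    exact ⟨u, hu⟩
  set K : Subgroup G := Φ.ker with hK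
  have hK8 : Nat.card K = 8 := by
    have h1 : K.index = 4 := by
      rw [hK, Subgroup.index_ker, MonoidHom.range_eq_top.2 hsurj, Subgroup.card_top,
        Nat.card_prod, hcardZ]
    have h2 := Subgroup.card_mul_index K
    rw [h1, hG.card] at h2
    omega
  have hZK : Z ≤ K := by
    intro s hs
    rw [hK, MonoidHom.mem_ker]
    have h1 := Subgroup.mem_center_iff.1 hs
    refine Prod.ext (Subtype.ext ?_) (Subtype.ext ?_)
    · exact commutatorElement_eq_one_iff_commute.2 (h1 a).symm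
    · exact commutatorElement_eq_one_iff_commute.2 (h1 b).symm
  have hcardQ : Nat.card (K ⧸ Z.subgroupOf K) = 2 ^ 2 := by
    have h1 := Subgroup.card_eq_card_quotient_mul_card_subgroup (Z.subgroupOf K)
    have h2 : Nat.card (Z.subgroupOf K) = 2 := by
      rw [Nat.card_congr (Subgroup.subgroupOfEquivOfLe hZK).toEquiv]; exact hcardZ
    rw [hK8, h2] at h1
    omega
  have hKcomm : ∀ c c' : G, c ∈ K → c' ∈ K → (c * c')⁻¹ * (c' * c) ∈ Z := by
    intro c c' hc hc'
    have h := (IsPGroup.isMulCommutative_of_card_eq_prime_sq hcardQ).is_comm.comm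
      (QuotientGroup.mk (⟨c, hc⟩ : K)) (QuotientGroup.mk (⟨c', hc'⟩ : K))
    rw [← QuotientGroup.mk_mul, ← QuotientGroup.mk_mul, QuotientGroup.eq] at h
    exact Subgroup.mem_subgroupOf.1 h
  -- conclusion in the quotient by the centre
  have hπW : ∀ u ∈ W, ∀ t : G ⧸ Z, Commute (QuotientGroup.mk' Z u) t := by
    intro u hu t
    obtain ⟨g, rfl⟩ := QuotientGroup.mk'_surjective Z t
    have h1 : QuotientGroup.mk' Z ⁅u, g⁆ = 1 := (QuotientGroup.eq_one_iff _).2 (hWmem u hu g)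
    rw [map_commutatorElement] at h1
    exact commutatorElement_eq_one_iff_commute.1 h1
  have hπK : ∀ c c' : G, c ∈ K → c' ∈ K →
      Commute (QuotientGroup.mk' Z c) (QuotientGroup.mk' Z c') := by
    intro c c' hc hc'
    have h1 : QuotientGroup.mk' Z ((c * c')⁻¹ * (c' * c)) = 1 :=
      (QuotientGroup.eq_one_iff _).2 (hKcomm c c' hc hc')
    rw [map_mul, map_inv, inv_mul_eq_one, map_mul, map_mul] at h1
    exact h1
  have hdec : ∀ g : G, ∃ c ∈ K, ∃ u ∈ W, g = c * u := by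
    intro g
    obtain ⟨u, hu, hΦu⟩ := hsurjW (Φ g)
    refine ⟨g * u⁻¹, ?_, u, hu, by group⟩
    rw [hK, MonoidHom.mem_ker, map_mul, map_inv, hΦu, mul_inv_cancel]
  obtain ⟨c, hc, u, hu, rfl⟩ := hdec x
  obtain ⟨c', hc', u', hu', rfl⟩ := hdec y
  have hcomm : Commute (QuotientGroup.mk' Z (c * u)) (QuotientGroup.mk' Z (c' * u')) := by
    rw [map_mul, map_mul]
    exact ((hπK c c' hc hc').mul_right ((hπW u' hu' _).symm)).mul_left
      ((hπW u hu _).mul_right (hπW u hu _))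
  have hfin : QuotientGroup.mk' Z ((c * u) * (c' * u') * (c * u)⁻¹ * (c' * u')⁻¹) = 1 := by
    rw [← commutatorElement_def, map_commutatorElement]
    exact commutatorElement_eq_one_iff_commute.2 hcomm
  exact (QuotientGroup.eq_one_iff _).1 hfin

example : Cfsg.Agent.H75.ES.StGrp1.{u} := grp1

end Cfsg.Agent.H36.ES

#print axioms Cfsg.Agent.H36.ES.grp1
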