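import Mathlib.GroupTheory.Index
import Mathlib.GroupTheory.Commutator.Basic
import Mathlib.GroupTheory.Sylow
import Mathlib.Tactic

set_option autoImplicit false

/-!
Helper lemmas of seat helper36: elementary abelian 2-subgroups and a normal elementary
abelian subgroup (towards S1785).
-/

namespace Cfsg.Agent.H36

/-- Adjoining to `V` an involution `e ∉ V` centralizing `V`: explicit description and order. -/
theorem sup_zpowers_involution {X : Type*} [Group X] (V : Subgroup X) (e : X)
    (heV : e ∉ V) (he2 : e * e = 1) (hc : ∀ v ∈ V, e * v = v * e) :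
    (∀ g, g ∈ V ⊔ Subgroup.zpowers e ↔ (g ∈ V ∨ g * e ∈ V)) ∧
    Nat.card ↥(V ⊔ Subgroup.zpowers e) = 2 * Nat.card ↥V := by
  have hinv : e⁻¹ = e := inv_eq_of_mul_eq_one_left he2
  have hcomm : ∀ g, g * e ∈ V → e * g = g * e := by
    intro g hg
    have h1 := hc _ hg
    -- e * (g * e) = g * e * e = g
    have h2 : e * g * e = g := by
      rw [mul_assoc, h1, mul_assoc, he2, mul_one]
    have h3 : e * g = g * e⁻¹ := by
      rw [eq_mul_inv_iff_mul_eq]; exact h2
    rw [h3, hinv]
  let W : Subgroup X :=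
    { carrier := {g | g ∈ V ∨ g * e ∈ V}
      one_mem' := Or.inl V.one_mem
      mul_mem' := by
        rintro g h (hg | hg) (hh | hh)
        · exact Or.inl (V.mul_mem hg hh)
        · right
          rw [mul_assoc]
          exact V.mul_mem hg hh
        · right
          have : g * h * e = g * e * h := by
            rw [mul_assoc, ← hc h hh, mul_assoc]
          rw [this]
          exact V.mul_mem hg hh
        · left
          have : g * h = g * e * (h * e) := by
            have h1 := hcomm h hh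
            calc g * h = g * (h * (e * e)) := by rw [he2, mul_one]
              _ = g * (h * e * e) := by rw [mul_assoc]
              _ = g * (e * h * e) := by rw [h1]
              _ = g * e * (h * e) := by simp only [mul_assoc]
          rw [this]
          exact V.mul_mem hg hh
      inv_mem' := by
        rintro g (hg | hg)
        · exact Or.inl (V.inv_mem hg)
        · right
          have h1 := hcomm g hg
          have : g⁻¹ * e = (g * e)⁻¹ := by
            rw [mul_inv_rev, hinv]
            -- g⁻¹ * e = e * g⁻¹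
            have h2 : g⁻¹ * (e * g) * g⁻¹ = g⁻¹ * (g * e) * g⁻¹ := by rw [h1]
            simpa [mul_assoc] using h2
          rw [this]
          exact V.inv_mem hg }
  have hWmem : ∀ g, g ∈ W ↔ (g ∈ V ∨ g * e ∈ V) := fun g => Iff.rfl
  have hW : V ⊔ Subgroup.zpowers e = W := by
    apply le_antisymm
    · apply sup_le
      · intro g hg
        exact Or.inl hg
      · rw [Subgroup.zpowers_le]
        right
        rw [he2]
        exact V.one_mem
    · intro g hg
      rcases hg with hg | hg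
      · exact Subgroup.mem_sup_left hg
      · have : g = g * e * e⁻¹ := by simp
        rw [this]
        exact Subgroup.mul_mem_sup hg (Subgroup.inv_mem _ (Subgroup.mem_zpowers e))
  rw [hW]
  refine ⟨hWmem, ?_⟩
  have hVW : V ≤ W := fun g hg => Or.inl hg
  have h2 : V.relIndex W = 2 := by
    rw [Subgroup.relIndex_eq_two_iff]
    refine ⟨e, Or.inr (by rw [he2]; exact V.one_mem), ?_⟩
    intro b hb
    rcases hb with hb | hb
    · refine Or.inr ⟨hb, ?_⟩
      intro hbe
      apply heV
      have : e = b⁻¹ * (b * e) := by simp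
      rw [this]
      exact V.mul_mem (V.inv_mem hb) hbe
    · refine Or.inl ⟨hb, ?_⟩
      intro hb'
      apply heV
      have : e = b⁻¹ * (b * e) := by simp
      rw [this]
      exact V.mul_mem (V.inv_mem hb') hb
  have h3 := Subgroup.relIndex_mul_relIndex (⊥ : Subgroup X) V W bot_le hVW
  rw [Subgroup.relIndex_bot_left, Subgroup.relIndex_bot_left, h2] at h3
  omega

/-- An involution `a` normalizing an elementary abelian 2-subgroup `F` has at least
`√|F|` fixed points on it. -/
theorem card_le_sq_fixed {X : Type*} [Group X] [Finite X] (F : Subgroup X)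
    (hFc : ∀ x ∈ F, ∀ y ∈ F, x * y = y * x) (hF2 : ∀ x ∈ F, x * x = 1)
    (a : X) (ha2 : a * a = 1) (haF : ∀ x ∈ F, a * x * a⁻¹ ∈ F) :
    Nat.card ↥F ≤ Nat.card ↥(F ⊓ Subgroup.centralizer ({a} : Set X)) ^ 2 := by
  have hinv : a⁻¹ = a := inv_eq_of_mul_eq_one_left ha2
  let φ : ↥F →* ↥F :=
    { toFun := fun x => ⟨x * (a * x * a⁻¹), F.mul_mem x.2 (haF x x.2)⟩
      map_one' := by apply Subtype.ext; simp
      map_mul' := by
        intro x y
        apply Subtype.ext
        have h1 := hFc y y.2 (a * x * a⁻¹) (haF x x.2)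
        change (x : X) * y * (a * (x * y) * a⁻¹) = x * (a * x * a⁻¹) * (y * (a * y * a⁻¹))
        calc (x : X) * y * (a * (x * y) * a⁻¹)
            = x * (y * (a * x * a⁻¹)) * (a * y * a⁻¹) := by simp [mul_assoc]
          _ = x * ((a * x * a⁻¹) * y) * (a * y * a⁻¹) := by rw [h1]
          _ = x * (a * x * a⁻¹) * (y * (a * y * a⁻¹)) := by simp only [mul_assoc] }
  have hφ : ∀ x : ↥F, ((φ x : ↥F) : X) = x * (a * x * a⁻¹) := fun x => rfl
  set C : Subgroup X := F ⊓ Subgroup.centralizer ({a} : Set X) with hC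
  have hCF : C ≤ F := inf_le_left
  have hCmem : ∀ x : X, x ∈ F → a * x = x * a → x ∈ C := by
    intro x hx hax
    refine Subgroup.mem_inf.mpr ⟨hx, ?_⟩
    rw [Subgroup.mem_centralizer_iff]
    intro h hh
    rw [Set.mem_singleton_iff] at hh
    rw [hh, hax]
  have hker : φ.ker ≤ C.subgroupOf F := by
    intro x hx
    rw [MonoidHom.mem_ker] at hx
    have h1 : (x : X) * (a * x * a⁻¹) = 1 := by
      have := congrArg Subtype.val hx
      rwa [hφ] at this
    rw [Subgroup.mem_subgroupOf]
    apply hCmem _ x.2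
    have h2 : a * x * a⁻¹ = (x : X)⁻¹ := eq_inv_of_mul_eq_one_right h1
    have h3 : (x : X)⁻¹ = x := inv_eq_of_mul_eq_one_left (hF2 x x.2)
    rw [h3] at h2
    have h4 := congrArg (fun t => t * a) h2
    simpa [mul_assoc] using h4
  have hrange : φ.range ≤ C.subgroupOf F := by
    rintro y ⟨x, rfl⟩
    rw [Subgroup.mem_subgroupOf]
    apply hCmem _ (φ x).2
    rw [hφ]
    have h1 := hFc x x.2 (a * x * a⁻¹) (haF x x.2)
    calc a * ((x : X) * (a * x * a⁻¹)) = (a * x * a⁻¹) * ((a * a) * x * a⁻¹) := by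
          group
      _ = (a * x * a⁻¹) * x * a⁻¹ := by rw [ha2, one_mul]; simp only [mul_assoc]
      _ = x * (a * x * a⁻¹) * a⁻¹ := by rw [h1]
      _ = x * (a * x * a⁻¹) * a := by rw [hinv]
  have hcard : Nat.card ↥(C.subgroupOf F) = Nat.card ↥C :=
    Nat.card_congr (Subgroup.subgroupOfEquivOfLe hCF).toEquiv
  have h1 : Nat.card ↥φ.ker * φ.ker.index = Nat.card ↥F := Subgroup.card_mul_index _
  rw [Subgroup.index_ker] at h1
  have h2 : Nat.card ↥φ.ker ≤ Nat.card ↥C := by
    rw [← hcard]; exact Subgroup.card_le_of_le hker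
  have h3 : Nat.card ↥φ.range ≤ Nat.card ↥C := by
    rw [← hcard]; exact Subgroup.card_le_of_le hrange
  calc Nat.card ↥F = Nat.card ↥φ.ker * Nat.card ↥φ.range := h1.symm
    _ ≤ Nat.card ↥C * Nat.card ↥C := Nat.mul_le_mul h2 h3
    _ = Nat.card ↥C ^ 2 := by ring

/-- Adjoining a centralizing involution to an elementary abelian 2-subgroup gives an
elementary abelian 2-subgroup. -/
theorem elem_abelian_sup_involution {X : Type*} [Group X] (V : Subgroup X) (e : X)
    (hVc : ∀ x ∈ V, ∀ y ∈ V, x * y = y * x) (hV2 : ∀ x ∈ V, x * x = 1)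
    (heV : e ∉ V) (he2 : e * e = 1) (hc : ∀ v ∈ V, e * v = v * e) :
    (∀ x ∈ V ⊔ Subgroup.zpowers e, ∀ y ∈ V ⊔ Subgroup.zpowers e, x * y = y * x) ∧
    (∀ x ∈ V ⊔ Subgroup.zpowers e, x * x = 1) := by
  have hmc : ∀ g x : X, g ∈ Subgroup.centralizer ({x} : Set X) ↔ x * g = g * x := by
    intro g x
    rw [Subgroup.mem_centralizer_iff]
    constructor
    · intro h; exact h x (Set.mem_singleton x)
    · intro h y hy
      rw [Set.mem_singleton_iff] at hy
      rw [hy]; exact h
  have h1 : ∀ x ∈ V, V ⊔ Subgroup.zpowers e ≤ Subgroup.centralizer ({x} : Set X) := by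
    intro x hx
    apply sup_le
    · intro y hy
      rw [hmc]
      exact hVc x hx y hy
    · rw [Subgroup.zpowers_le, hmc]
      exact (hc x hx).symm
  have h2 : V ⊔ Subgroup.zpowers e ≤ Subgroup.centralizer ({e} : Set X) := by
    apply sup_le
    · intro y hy
      rw [hmc]
      exact hc y hy
    · rw [Subgroup.zpowers_le, hmc]
  have h3 : ∀ x ∈ V ⊔ Subgroup.zpowers e, ∀ y ∈ V ⊔ Subgroup.zpowers e, x * y = y * x := by
    intro x hx y hy
    have : V ⊔ Subgroup.zpowers e ≤ Subgroup.centralizer ({y} : Set X) := by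
      apply sup_le
      · intro v hv
        rw [hmc]
        have := h1 v hv hy
        rw [hmc] at this
        exact this.symm
      · rw [Subgroup.zpowers_le, hmc]
        have := h2 hy
        rw [hmc] at this
        exact this.symm
    have := this hx
    rw [hmc] at this
    exact this.symm
  refine ⟨h3, ?_⟩
  obtain ⟨hmem, -⟩ := sup_zpowers_involution V e heV he2 hc
  intro x hx
  rcases (hmem x).mp hx with hxV | hxV
  · exact hV2 x hxV
  · have h4 := hV2 _ hxV
    have h5 : e * x = x * e :=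
      h3 e (Subgroup.mem_sup_right (Subgroup.mem_zpowers e)) x hx
    calc x * x = x * x * (e * e) := by rw [he2, mul_one]
      _ = x * (x * e) * e := by simp only [mul_assoc]
      _ = x * (e * x) * e := by rw [h5]
      _ = x * e * (x * e) := by simp only [mul_assoc]
      _ = 1 := h4

/-- If `E` is a normal elementary abelian 2-subgroup and `A` an elementary abelian 2-subgroup,
then `|E| ≤ |C_E(A)| ^ [A : A ∩ E]`. -/
theorem elem_abelian_centralizer_bound {X : Type*} [Group X] [Finite X] (E : Subgroup X)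
    [hEn : E.Normal]
    (hEc : ∀ x ∈ E, ∀ y ∈ E, x * y = y * x) (hE2 : ∀ x ∈ E, x * x = 1)
    (A : Subgroup X) (hAc : ∀ x ∈ A, ∀ y ∈ A, x * y = y * x) (hA2 : ∀ x ∈ A, x * x = 1) :
    ∃ k : ℕ, Nat.card ↥A = k * Nat.card ↥(A ⊓ E) ∧
      Nat.card ↥E ≤ Nat.card ↥(E ⊓ Subgroup.centralizer (A : Set X)) ^ k := by
  classical
  set U : Subgroup X := A ⊓ E with hU
  let good : Subgroup X → Prop := fun D => U ≤ D ∧ D ≤ A ∧
    ∃ k : ℕ, Nat.card ↥D = k * Nat.card ↥U ∧
      Nat.card ↥E ≤ Nat.card ↥(E ⊓ Subgroup.centralizer (D : Set X)) ^ k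
  have hUgood : good U := by
    refine ⟨le_rfl, inf_le_left, 1, by simp, ?_⟩
    rw [pow_one]
    apply Subgroup.card_le_of_le
    intro x hx
    refine Subgroup.mem_inf.mpr ⟨hx, ?_⟩
    rw [Subgroup.mem_centralizer_iff]
    intro y hy
    exact hEc y (Subgroup.mem_inf.mp hy).2 x hx
  obtain ⟨D, hDgood, hDmax⟩ : ∃ D, good D ∧ ∀ D', good D' → Nat.card ↥D' ≤ Nat.card ↥D := by
    have hfin : ({D | good D} : Set (Subgroup X)).Finite := Set.toFinite _
    obtain ⟨D, hD, hmax⟩ := Set.exists_max_image {D | good D} (fun D => Nat.card ↥D) hfin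
      ⟨U, hUgood⟩
    exact ⟨D, hD, fun D' hD' => hmax D' hD'⟩
  obtain ⟨hUD, hDA, k, hk1, hk2⟩ := hDgood
  by_cases hDA' : A ≤ D
  · have hDeq : D = A := le_antisymm hDA hDA'
    rw [hDeq] at hk1 hk2
    exact ⟨k, hk1, hk2⟩
  · exfalso
    obtain ⟨a, haA, haD⟩ := SetLike.not_le_iff_exists.mp hDA'
    have ha2 := hA2 a haA
    have hac : ∀ v ∈ D, a * v = v * a := fun v hv => hAc a haA v (hDA hv)
    obtain ⟨hmem, hcard⟩ := sup_zpowers_involution D a haD ha2 hac
    have hD'A : D ⊔ Subgroup.zpowers a ≤ A :=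
      sup_le hDA (by rw [Subgroup.zpowers_le]; exact haA)
    have hgood' : good (D ⊔ Subgroup.zpowers a) := by
      refine ⟨hUD.trans le_sup_left, hD'A, 2 * k, ?_, ?_⟩
      · rw [hcard, hk1]; ring
      · set F : Subgroup X := E ⊓ Subgroup.centralizer (D : Set X) with hF
        have hFE : ∀ x ∈ F, x ∈ E := fun x hx => (Subgroup.mem_inf.mp hx).1
        have hFD : ∀ x ∈ F, ∀ d ∈ D, d * x = x * d := fun x hx d hd =>
          Subgroup.mem_centralizer_iff.mp (Subgroup.mem_inf.mp hx).2 d hd
        have hFc : ∀ x ∈ F, ∀ y ∈ F, x * y = y * x := fun x hx y hy =>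
          hEc x (hFE x hx) y (hFE y hy)
        have hF2 : ∀ x ∈ F, x * x = 1 := fun x hx => hE2 x (hFE x hx)
        have hinv : a⁻¹ = a := inv_eq_of_mul_eq_one_left ha2
        have haF : ∀ x ∈ F, a * x * a⁻¹ ∈ F := by
          intro x hx
          refine Subgroup.mem_inf.mpr ⟨hEn.conj_mem x (hFE x hx) a, ?_⟩
          rw [Subgroup.mem_centralizer_iff]
          intro d hd
          have h1 : d * x = x * d := hFD x hx d hd
          have h2 := hac d hd
          rw [hinv]
          calc d * (a * x * a) = (d * a) * x * a := by simp only [mul_assoc]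
            _ = (a * d) * x * a := by rw [h2]
            _ = a * (d * x) * a := by simp only [mul_assoc]
            _ = a * (x * d) * a := by rw [h1]
            _ = a * x * (d * a) := by simp only [mul_assoc]
            _ = a * x * (a * d) := by rw [h2]
            _ = a * x * a * d := by simp only [mul_assoc]
        have hL1 := card_le_sq_fixed F hFc hF2 a ha2 haF
        have hsub : F ⊓ Subgroup.centralizer ({a} : Set X) ≤
            E ⊓ Subgroup.centralizer ((D ⊔ Subgroup.zpowers a : Subgroup X) : Set X) := by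
          intro x hx
          have hxF : x ∈ F := (Subgroup.mem_inf.mp hx).1
          have hxa : a * x = x * a :=
            Subgroup.mem_centralizer_iff.mp (Subgroup.mem_inf.mp hx).2 a (Set.mem_singleton a)
          refine Subgroup.mem_inf.mpr ⟨hFE x hxF, ?_⟩
          rw [Subgroup.mem_centralizer_iff]
          intro g hg
          rcases (hmem g).mp hg with hg | hg
          · exact hFD x hxF g hg
          · have h1 := hFD x hxF _ hg
            have h2 : g * x * a = x * g * a := by
              calc g * x * a = g * (x * a) := mul_assoc _ _ _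
                _ = g * (a * x) := by rw [hxa]
                _ = g * a * x := (mul_assoc _ _ _).symm
                _ = x * (g * a) := h1
                _ = x * g * a := (mul_assoc _ _ _).symm
            exact mul_right_cancel h2
        calc Nat.card ↥E ≤ Nat.card ↥F ^ k := hk2
          _ ≤ (Nat.card ↥(F ⊓ Subgroup.centralizer ({a} : Set X)) ^ 2) ^ k :=
              Nat.pow_le_pow_left hL1 k
          _ = Nat.card ↥(F ⊓ Subgroup.centralizer ({a} : Set X)) ^ (2 * k) := by rw [← pow_mul]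
          _ ≤ Nat.card ↥(E ⊓ Subgroup.centralizer
                ((D ⊔ Subgroup.zpowers a : Subgroup X) : Set X)) ^ (2 * k) :=
              Nat.pow_le_pow_left (Subgroup.card_le_of_le hsub) _
    have h1 := hDmax _ hgood'
    rw [hcard] at h1
    have : 0 < Nat.card ↥D := Nat.card_pos
    omega

/-- If `E` is a normal elementary abelian 2-subgroup of order at least 32, then every elementary
abelian subgroup `A` of order 4 or 8 is centralized by an element of `E` outside `A`. -/
theorem exists_centralizing_outside {X : Type*} [Group X] [Finite X] (E : Subgroup X) [E.Normal]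
    (hEc : ∀ x ∈ E, ∀ y ∈ E, x * y = y * x) (hE2 : ∀ x ∈ E, x * x = 1)
    (hE32 : 32 ≤ Nat.card ↥E)
    (A : Subgroup X) (hAc : ∀ x ∈ A, ∀ y ∈ A, x * y = y * x) (hA2 : ∀ x ∈ A, x * x = 1)
    (hA : Nat.card ↥A = 4 ∨ Nat.card ↥A = 8) :
    ∃ e ∈ E, e ∉ A ∧ ∀ x ∈ A, e * x = x * e := by
  by_contra hcon
  push Not at hcon
  obtain ⟨k, hk1, hk2⟩ := elem_abelian_centralizer_bound E hEc hE2 A hAc hA2
  have hle : E ⊓ Subgroup.centralizer (A : Set X) ≤ A ⊓ E := by
    intro e he
    have heE : e ∈ E := (Subgroup.mem_inf.mp he).1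
    refine Subgroup.mem_inf.mpr ⟨?_, heE⟩
    by_contra heA
    obtain ⟨x, hx, hne⟩ := hcon e heE heA
    exact hne ((Subgroup.mem_centralizer_iff.mp (Subgroup.mem_inf.mp he).2) x hx).symm
  have hc := Subgroup.card_le_of_le hle
  have h32 : 32 ≤ Nat.card ↥(A ⊓ E) ^ k :=
    le_trans hE32 (le_trans hk2 (Nat.pow_le_pow_left hc k))
  have hupos : 0 < Nat.card ↥(A ⊓ E) := Nat.card_pos
  generalize Nat.card ↥(A ⊓ E) = u at hk1 h32 hupos
  have hkpos : 0 < k := by
    rcases Nat.eq_zero_or_pos k with h | h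
    · subst h
      simp at h32
    · exact h
  have hk8 : k ≤ 8 := by
    rcases hA with h | h <;> rw [h] at hk1 <;> nlinarith
  have hu8 : u ≤ 8 := by
    rcases hA with h | h <;> rw [h] at hk1 <;> nlinarith
  rcases hA with h | h
  all_goals
    rw [h] at hk1
    interval_cases k <;> interval_cases u <;> simp at hk1 h32

/-- In a group of order 8, a proper subgroup lies in a subgroup of order 4. -/
theorem exists_card_four_between {X : Type*} [Group X] [Finite X] (A U : Subgroup X)
    (hA8 : Nat.card ↥A = 8) (hUA : U ≤ A) (hne : ¬ A ≤ U) :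
    ∃ U' : Subgroup X, U ≤ U' ∧ U' ≤ A ∧ Nat.card ↥U' = 4 := by
  have : Fact (Nat.Prime 2) := ⟨Nat.prime_two⟩
  set H : Subgroup ↥A := U.subgroupOf A with hH
  have hdvd : Nat.card ↥H ∣ 2 ^ 3 := by
    have := Subgroup.card_subgroup_dvd_card H
    rw [hA8] at this
    exact this
  obtain ⟨n, hn3, hn⟩ := (Nat.dvd_prime_pow Nat.prime_two).mp hdvd
  have hn2 : n ≤ 2 := by
    by_contra hcon
    have h3 : n = 3 := by omega
    subst h3
    apply hne
    have hHtop : H = ⊤ := Subgroup.eq_top_of_card_eq H (by rw [hn, hA8]; norm_num)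
    rw [hH, Subgroup.subgroupOf_eq_top] at hHtop
    exact hHtop
  obtain ⟨K, hK4, hHK⟩ := Sylow.exists_subgroup_card_pow_prime_le 2 (m := 2)
    (by rw [hA8]; norm_num) H hn hn2
  refine ⟨K.map A.subtype, ?_, Subgroup.map_subtype_le K, ?_⟩
  · intro x hx
    exact ⟨⟨x, hUA hx⟩, hHK (Subgroup.mem_subgroupOf.mpr hx), rfl⟩
  · rw [Subgroup.card_map_of_injective A.subtype_injective, hK4]; norm_num

/-- One step: an elementary abelian subgroup `A` of order 8 not inside `E` commutes with an
elementary abelian subgroup `A₁` of order 8 meeting `E` in a larger subgroup. -/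
theorem e8_step {X : Type*} [Group X] [Finite X] (E : Subgroup X) [E.Normal]
    (hEc : ∀ x ∈ E, ∀ y ∈ E, x * y = y * x) (hE2 : ∀ x ∈ E, x * x = 1)
    (hE32 : 32 ≤ Nat.card ↥E)
    (A : Subgroup X) (hAc : ∀ x ∈ A, ∀ y ∈ A, x * y = y * x) (hA2 : ∀ x ∈ A, x * x = 1)
    (hA8 : Nat.card ↥A = 8) (hAE : ¬ A ≤ E) :
    ∃ A₁ : Subgroup X, (∀ x ∈ A₁, ∀ y ∈ A₁, x * y = y * x) ∧ (∀ x ∈ A₁, x * x = 1) ∧
      Nat.card ↥A₁ = 8 ∧ (∀ x ∈ A, ∀ y ∈ A₁, x * y = y * x) ∧
      Nat.card ↥(A ⊓ E) < Nat.card ↥(A₁ ⊓ E) := by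
  obtain ⟨e, heE, heA, hec⟩ := exists_centralizing_outside E hEc hE2 hE32 A hAc hA2 (Or.inr hA8)
  obtain ⟨U', hUU', hU'A, hU'4⟩ := exists_card_four_between A (A ⊓ E) hA8 inf_le_left
    (fun h => hAE (h.trans inf_le_right))
  have heU' : e ∉ U' := fun h => heA (hU'A h)
  have he2 := hE2 e heE
  have hcU' : ∀ v ∈ U', e * v = v * e := fun v hv => hec v (hU'A hv)
  obtain ⟨hmem, hcard⟩ := sup_zpowers_involution U' e heU' he2 hcU'
  obtain ⟨h1, h2⟩ := elem_abelian_sup_involution U' e
    (fun x hx y hy => hAc x (hU'A hx) y (hU'A hy)) (fun x hx => hA2 x (hU'A hx)) heU' he2 hcU'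
  refine ⟨U' ⊔ Subgroup.zpowers e, h1, h2, by rw [hcard, hU'4], ?_, ?_⟩
  · intro x hx y hy
    have hsub : U' ⊔ Subgroup.zpowers e ≤ Subgroup.centralizer ({x} : Set X) := by
      apply sup_le
      · intro v hv
        rw [Subgroup.mem_centralizer_iff]
        intro z hz
        rw [Set.mem_singleton_iff] at hz
        rw [hz]
        exact hAc x hx v (hU'A hv)
      · rw [Subgroup.zpowers_le, Subgroup.mem_centralizer_iff]
        intro z hz
        rw [Set.mem_singleton_iff] at hz
        rw [hz]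
        exact (hec x hx).symm
    exact Subgroup.mem_centralizer_iff.mp (hsub hy) x (Set.mem_singleton x)
  · have hlt : A ⊓ E < (U' ⊔ Subgroup.zpowers e) ⊓ E := by
      apply lt_of_le_of_ne
      · exact le_inf (hUU'.trans le_sup_left) inf_le_right
      · intro heq
        have : e ∈ (U' ⊔ Subgroup.zpowers e) ⊓ E :=
          Subgroup.mem_inf.mpr ⟨Subgroup.mem_sup_right (Subgroup.mem_zpowers e), heE⟩
        rw [← heq] at this
        exact heA (Subgroup.mem_inf.mp this).1
    by_contra hcon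
    push Not at hcon
    exact absurd (Subgroup.eq_of_le_of_card_ge hlt.le hcon) hlt.ne

/-- Every elementary abelian subgroup of order 8 is joined, through a chain of pairwise commuting
elementary abelian subgroups of order 8, to one inside `E`. -/
theorem e8_connected_into {X : Type*} [Group X] [Finite X] (E : Subgroup X) [E.Normal]
    (hEc : ∀ x ∈ E, ∀ y ∈ E, x * y = y * x) (hE2 : ∀ x ∈ E, x * x = 1)
    (hE32 : 32 ≤ Nat.card ↥E) (R : Subgroup X → Subgroup X → Prop)
    (hR : ∀ C D : Subgroup X, (∀ x ∈ C, ∀ y ∈ C, x * y = y * x) → (∀ x ∈ C, x * x = 1) →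
      Nat.card ↥C = 8 → (∀ x ∈ D, ∀ y ∈ D, x * y = y * x) → (∀ x ∈ D, x * x = 1) →
      Nat.card ↥D = 8 → (∀ x ∈ C, ∀ y ∈ D, x * y = y * x) → R C D) :
    ∀ n : ℕ, ∀ A : Subgroup X, (∀ x ∈ A, ∀ y ∈ A, x * y = y * x) → (∀ x ∈ A, x * x = 1) →
      Nat.card ↥A = 8 → 8 - Nat.card ↥(A ⊓ E) ≤ n →
      ∃ B : Subgroup X, B ≤ E ∧ Nat.card ↥B = 8 ∧ (∀ x ∈ B, ∀ y ∈ B, x * y = y * x) ∧
        (∀ x ∈ B, x * x = 1) ∧ Relation.ReflTransGen R A B := by
  intro n
  induction n with
  | zero =>
    intro A hAc hA2 hA8 hn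
    by_cases hAE : A ≤ E
    · exact ⟨A, hAE, hA8, hAc, hA2, Relation.ReflTransGen.refl⟩
    · exfalso
      obtain ⟨A₁, -, -, h3, -, h5⟩ := e8_step E hEc hE2 hE32 A hAc hA2 hA8 hAE
      have : Nat.card ↥(A₁ ⊓ E) ≤ Nat.card ↥A₁ := Subgroup.card_le_of_le inf_le_left
      omega
  | succ n ih =>
    intro A hAc hA2 hA8 hn
    by_cases hAE : A ≤ E
    · exact ⟨A, hAE, hA8, hAc, hA2, Relation.ReflTransGen.refl⟩
    · obtain ⟨A₁, h1, h2, h3, h4, h5⟩ := e8_step E hEc hE2 hE32 A hAc hA2 hA8 hAE
      obtain ⟨B, hBE, hB8, hBc, hB2, hchain⟩ := ih A₁ h1 h2 h3 (by omega)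
      exact ⟨B, hBE, hB8, hBc, hB2,
        Relation.ReflTransGen.head (hR A A₁ hAc hA2 hA8 h1 h2 h3 h4) hchain⟩

end Cfsg.Agent.H36
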