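import Cfsg.Prelude.Def_Transfer
import Mathlib.GroupTheory.Commutator.Basic
import Mathlib.GroupTheory.Abelianization.Defs
import Mathlib.SetTheory.Cardinal.Finite

set_option autoImplicit false

/-!
Helper lemmas of seat helper36: the central involution of an extraspecial 2-subgroup, in
elementwise form.
-/

namespace Cfsg.Agent.H36

open Cfsg
open scoped commutatorElement

/-- An extraspecial 2-subgroup `Q` has a central involution `z` such that `{1, z}` is the centre of `Q`
and contains all commutators of `Q`. -/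
theorem extraspecial_two_center {G : Type*} [Group G] (Q : Subgroup G)
    (hQ : Cfsg.IsExtraspecial 2 ↥Q) :
    ∃ z ∈ Q, z ≠ 1 ∧ z * z = 1 ∧ (∀ q ∈ Q, q * z = z * q) ∧
      (∀ c ∈ Q, (∀ q ∈ Q, q * c = c * q) → c = 1 ∨ c = z) ∧
      (∀ a ∈ Q, ∀ b ∈ Q, a * b * a⁻¹ * b⁻¹ = 1 ∨ a * b * a⁻¹ * b⁻¹ = z) := by
  obtain ⟨⟨-, -, hcomm⟩, hcard⟩ := hQ
  obtain ⟨z', hz'1, hz'uniq⟩ := (Nat.card_eq_two_iff' (1 : Subgroup.center ↥Q)).mp hcard
  have hz'c : ∀ q : Q, q * (z' : Q) = (z' : Q) * q := Subgroup.mem_center_iff.mp z'.2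
  have hz1 : ((z' : Q) : G) ≠ 1 := by
    intro h
    apply hz'1
    apply Subtype.ext
    apply Subtype.ext
    exact h
  have hzc : ∀ q ∈ Q, q * ((z' : Q) : G) = ((z' : Q) : G) * q := by
    intro q hq
    exact congrArg Subtype.val (hz'c ⟨q, hq⟩)
  have hcen : ∀ c ∈ Q, (∀ q ∈ Q, q * c = c * q) → c = 1 ∨ c = ((z' : Q) : G) := by
    intro c hc hcc
    have hmem : (⟨c, hc⟩ : Q) ∈ Subgroup.center ↥Q := by
      rw [Subgroup.mem_center_iff]
      intro q
      apply Subtype.ext
      exact hcc q q.2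
    by_cases h1 : c = 1
    · exact Or.inl h1
    · right
      have hne : (⟨⟨c, hc⟩, hmem⟩ : Subgroup.center ↥Q) ≠ 1 := by
        intro h
        apply h1
        have := congrArg (fun x : Subgroup.center ↥Q => ((x : Q) : G)) h
        simpa using this
      have := hz'uniq _ hne
      have := congrArg (fun x : Subgroup.center ↥Q => ((x : Q) : G)) this
      simpa using this
  refine ⟨((z' : Q) : G), (z' : Q).2, hz1, ?_, hzc, hcen, ?_⟩
  · -- z * z = 1
    have hzz : ∀ q ∈ Q, q * (((z' : Q) : G) * ((z' : Q) : G)) =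
        (((z' : Q) : G) * ((z' : Q) : G)) * q := by
      intro q hq
      rw [← mul_assoc, hzc q hq, mul_assoc, hzc q hq, mul_assoc]
    rcases hcen _ (Q.mul_mem (z' : Q).2 (z' : Q).2) hzz with h | h
    · exact h
    · exfalso
      apply hz1
      have := congrArg (fun x => ((z' : Q) : G)⁻¹ * x) h
      simpa using this
  · intro a ha b hb
    have hmem : ⁅(⟨a, ha⟩ : Q), (⟨b, hb⟩ : Q)⁆ ∈ commutator ↥Q := by
      rw [_root_.commutator_def]
      exact Subgroup.commutator_mem_commutator (Subgroup.mem_top _) (Subgroup.mem_top _)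
    rw [hcomm] at hmem
    have hc : ∀ q ∈ Q, q * (a * b * a⁻¹ * b⁻¹) = (a * b * a⁻¹ * b⁻¹) * q := by
      intro q hq
      have := congrArg Subtype.val (Subgroup.mem_center_iff.mp hmem ⟨q, hq⟩)
      simpa [commutatorElement_def] using this
    exact hcen _ (Q.mul_mem (Q.mul_mem (Q.mul_mem ha hb) (Q.inv_mem ha)) (Q.inv_mem hb)) hc

end Cfsg.Agent.H36
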