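import Cfsg.Agent.H36.Pairing
import Cfsg.Agent.H36.ElemAbelian

set_option autoImplicit false

/-!
Helper lemmas of seat helper36: an involution `α` acting on an extraspecial 2-group `Q` with centre
`{1, z}`: the commutator subgroup `[α, Q]` is the centre of the preimage `Q₀` of `C_{Q/⟨z⟩}(α)`.
Everything is stated elementwise inside an ambient finite group.
-/

namespace Cfsg.Agent.H36

/-- The subgroup generated by an involution `z` is `{1, z}`. -/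
theorem mem_zpowers_involution_iff {G : Type*} [Group G] (z : G) (hz2 : z * z = 1) (x : G) :
    x ∈ Subgroup.zpowers z ↔ x = 1 ∨ x = z := by
  by_cases hz1 : z = 1
  · subst hz1; simp
  · have h := (sup_zpowers_involution (⊥ : Subgroup G) z (by simpa using hz1) hz2 (by simp)).1 x
    rw [bot_sup_eq] at h
    rw [h]
    simp only [Subgroup.mem_bot]
    constructor
    · rintro (h1 | h1)
      · exact Or.inl h1
      · right
        have h2 : x = z⁻¹ := eq_inv_of_mul_eq_one_left h1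
        rw [h2]; exact inv_eq_of_mul_eq_one_left hz2
    · rintro (h1 | h1)
      · exact Or.inl h1
      · right; rw [h1]; exact hz2

/-- Membership in the centre of a subgroup, viewed in the ambient group. -/
theorem mem_center_map_subtype {G : Type*} [Group G] (K : Subgroup G) (x : G) :
    x ∈ (Subgroup.center ↥K).map K.subtype ↔ x ∈ K ∧ ∀ y ∈ K, y * x = x * y := by
  constructor
  · rintro ⟨⟨x', hx'⟩, hc, rfl⟩
    refine ⟨hx', fun y hy => ?_⟩
    have := Subgroup.mem_center_iff.mp hc ⟨y, hy⟩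
    exact congrArg Subtype.val this
  · rintro ⟨hx, hc⟩
    refine ⟨⟨x, hx⟩, Subgroup.mem_center_iff.mpr ?_, rfl⟩
    intro y
    exact Subtype.ext (hc y y.2)

/-- Let `Q` be an "extraspecial 2-group with centre `{1, z}`" (elementwise: commutators and squares
lie in `{1, z}`, and the centre is `{1, z}`), and `α` an involution normalizing `Q`, centralizing `z`
and not centralizing `Q`. Let `Q₀` be the set of `q ∈ Q` with `[α, q] ∈ ⟨z⟩`. Then the subgroup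
generated by the commutators `[α, q]`, `q ∈ Q`, is the centre of `Q₀`. -/
theorem extraspecial_commutator_eq_center {G : Type*} [Group G] [Finite G] (Q : Subgroup G)
    (z α : G)
    (hzQ : z ∈ Q) (hz1 : z ≠ 1) (hz2 : z * z = 1) (hzc : ∀ q ∈ Q, q * z = z * q)
    (hcen : ∀ c ∈ Q, (∀ q ∈ Q, q * c = c * q) → c = 1 ∨ c = z)
    (hcomm : ∀ a ∈ Q, ∀ b ∈ Q, a * b * a⁻¹ * b⁻¹ = 1 ∨ a * b * a⁻¹ * b⁻¹ = z)
    (hsq : ∀ a ∈ Q, a * a = 1 ∨ a * a = z)
    (hα2 : α * α = 1) (hαz : α * z = z * α) (hαQ : ∀ q ∈ Q, α * q * α⁻¹ ∈ Q)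
    (hαnc : ∃ q ∈ Q, α * q ≠ q * α)
    (Q₀ : Subgroup G)
    (hQ₀ : ∀ q : G, q ∈ Q₀ ↔ (q ∈ Q ∧ α * q * α⁻¹ * q⁻¹ ∈ Subgroup.zpowers z)) :
    Subgroup.closure ((fun q : G => α * q * α⁻¹ * q⁻¹) '' (Q : Set G)) =
      (Subgroup.center ↥Q₀).map Q₀.subtype := by
  have : Fact (Nat.Prime 2) := ⟨Nat.prime_two⟩
  have hZ := mem_zpowers_involution_iff z hz2
  have hinv : α⁻¹ = α := inv_eq_of_mul_eq_one_left hα2
  obtain ⟨W, hW⟩ : ∃ W : Subgroup G,
      W = Subgroup.closure ((fun q : G => α * q * α⁻¹ * q⁻¹) '' (Q : Set G)) := ⟨_, rfl⟩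
  rw [← hW]
  have hκQ : ∀ q ∈ Q, α * q * α⁻¹ * q⁻¹ ∈ Q := fun q hq =>
    Q.mul_mem (hαQ q hq) (Q.inv_mem hq)
  have hκW : ∀ q ∈ Q, α * q * α⁻¹ * q⁻¹ ∈ W := fun q hq => by
    rw [hW]; exact Subgroup.subset_closure ⟨q, hq, rfl⟩
  have hQ₀Q : Q₀ ≤ Q := fun q hq => ((hQ₀ q).mp hq).1
  have hcz : ∀ c : G, (c = 1 ∨ c = z) →
      (∀ q ∈ Q, q * c = c * q) ∧ α * c = c * α ∧ c * c = 1 ∧ c ∈ Q := by
    rintro c (rfl | rfl)
    · exact ⟨fun q _ => by simp, by simp, by simp, Q.one_mem⟩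
    · exact ⟨hzc, hαz, hz2, hzQ⟩
  have hzQ₀ : z ∈ Q₀ := by
    rw [hQ₀]
    refine ⟨hzQ, ?_⟩
    rw [hZ]; left
    rw [hαz]; simp
  -- `W` is normalized by `Q`
  have hWnorm : ∀ x ∈ Q, ∀ w ∈ W, x * w * x⁻¹ ∈ W := by
    intro x hx w hw
    have hle : Subgroup.closure ((fun q : G => α * q * α⁻¹ * q⁻¹) '' (Q : Set G)) ≤
        W.comap (MulAut.conj x).toMonoidHom := by
      rw [Subgroup.closure_le]
      rintro _ ⟨q, hq, rfl⟩
      rw [SetLike.mem_coe, Subgroup.mem_comap]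
      have hid : (MulAut.conj x).toMonoidHom (α * q * α⁻¹ * q⁻¹) =
          (α * x * α⁻¹ * x⁻¹)⁻¹ * (α * (x * q) * α⁻¹ * (x * q)⁻¹) := by
        simp only [MulEquiv.toMonoidHom_eq_coe, MonoidHom.coe_coe, MulAut.conj_apply]
        group
      rw [hid]
      exact W.mul_mem (W.inv_mem (hκW x hx)) (hκW (x * q) (Q.mul_mem hx hq))
    rw [← hW] at hle
    have h1 := hle hw
    simpa [Subgroup.mem_comap, MulAut.conj_apply] using h1
  -- `z ∈ W`
  have hzW : z ∈ W := by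
    obtain ⟨q₀, hq₀, hne⟩ := hαnc
    have hw₀1 : α * q₀ * α⁻¹ * q₀⁻¹ ≠ 1 := by
      intro h
      apply hne
      exact (comm_iff_commutator_eq_one α q₀).mpr h
    have hw₀W := hκW q₀ hq₀
    have hw₀Q := hκQ q₀ hq₀
    by_cases hcentral : ∀ q ∈ Q, q * (α * q₀ * α⁻¹ * q₀⁻¹) = (α * q₀ * α⁻¹ * q₀⁻¹) * q
    · rcases hcen _ hw₀Q hcentral with h | h
      · exact absurd h hw₀1
      · rw [← h]; exact hw₀W
    · push Not at hcentral
      obtain ⟨x, hx, hxw⟩ := hcentral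
      rcases hcomm x hx _ hw₀Q with h | h
      · exact absurd ((comm_iff_commutator_eq_one x _).mpr h) hxw
      · rw [← h]
        exact W.mul_mem (hWnorm x hx _ hw₀W) (W.inv_mem hw₀W)
  -- `W ≤ Z(Q₀)`
  have hWle : W ≤ (Subgroup.center ↥Q₀).map Q₀.subtype := by
    rw [hW, Subgroup.closure_le]
    rintro _ ⟨q, hq, rfl⟩
    rw [SetLike.mem_coe, mem_center_map_subtype]
    have hq' : α * q * α⁻¹ ∈ Q := hαQ q hq
    constructor
    · rw [hQ₀]
      refine ⟨hκQ q hq, ?_⟩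
      rw [hZ]
      have hid : α * (α * q * α⁻¹ * q⁻¹) * α⁻¹ * (α * q * α⁻¹ * q⁻¹)⁻¹ =
          (q * (α * q * α⁻¹)⁻¹) * (q * (α * q * α⁻¹)⁻¹) := by
        have hαα : ∀ t : G, α * (α * t) = t := fun t => by rw [← mul_assoc, hα2, one_mul]
        simp only [mul_inv_rev, inv_inv, hinv, mul_assoc, hαα]
      rw [hid]
      exact hsq _ (Q.mul_mem hq (Q.inv_mem hq'))
    · intro x hx
      obtain ⟨hxQ, hxz⟩ := (hQ₀ x).mp hx
      rw [hZ] at hxz
      obtain ⟨hc1, hc2, hc3, hc4⟩ := hcz _ hxz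
      obtain ⟨hd1, hd2, hd3, hd4⟩ := hcz _ (hcomm q hq x hxQ)
      have hxc : α * x * α⁻¹ = (α * x * α⁻¹ * x⁻¹) * x := by group
      have hqx : q * x = (q * x * q⁻¹ * x⁻¹) * x * q := by group
      generalize α * x * α⁻¹ * x⁻¹ = c at hc1 hc2 hc3 hc4 hxc
      generalize q * x * q⁻¹ * x⁻¹ = d at hd1 hd2 hd3 hd4 hqx
      have hdα : α * d * α⁻¹ = d := by rw [hd2, mul_assoc, mul_inv_cancel, mul_one]
      have h2 : (α * q * α⁻¹) * x = d * x * (α * q * α⁻¹) := by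
        have h3 : c * ((α * q * α⁻¹) * x) = c * (d * x * (α * q * α⁻¹)) := by
          calc c * ((α * q * α⁻¹) * x) = (α * q * α⁻¹) * (c * x) := by
                rw [← mul_assoc, ← hc1 _ hq', mul_assoc]
            _ = α * (q * x) * α⁻¹ := by rw [← hxc]; group
            _ = α * (d * x * q) * α⁻¹ := by rw [← hqx]
            _ = (α * d * α⁻¹) * (α * x * α⁻¹) * (α * q * α⁻¹) := by group
            _ = d * (c * x) * (α * q * α⁻¹) := by rw [hxc, hdα]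
            _ = c * (d * x * (α * q * α⁻¹)) := by
                rw [← mul_assoc d c x, hc1 d hd4]; simp only [mul_assoc]
        exact mul_left_cancel h3
      have h4 : q⁻¹ * x = d * x * q⁻¹ := by
        have h5 : x * q⁻¹ = d * (q⁻¹ * x) := by
          have h6 := congrArg (fun t => q⁻¹ * t * q⁻¹) hqx
          simp only [mul_assoc, inv_mul_cancel_left, mul_inv_cancel, mul_one] at h6
          rw [h6, ← mul_assoc, ← mul_assoc, hd1 q⁻¹ (Q.inv_mem hq)]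
        calc q⁻¹ * x = (d * d) * (q⁻¹ * x) := by rw [hd3, one_mul]
          _ = d * (d * (q⁻¹ * x)) := mul_assoc _ _ _
          _ = d * (x * q⁻¹) := by rw [h5]
          _ = d * x * q⁻¹ := (mul_assoc _ _ _).symm
      calc x * (α * q * α⁻¹ * q⁻¹) = (d * d) * x * (α * q * α⁻¹) * q⁻¹ := by
            rw [hd3, one_mul]; simp only [mul_assoc]
        _ = d * (d * x * (α * q * α⁻¹)) * q⁻¹ := by simp only [mul_assoc]
        _ = d * ((α * q * α⁻¹) * x) * q⁻¹ := by rw [← h2]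
        _ = (α * q * α⁻¹) * (d * x * q⁻¹) := by
            rw [← mul_assoc d (α * q * α⁻¹) x, ← hd1 _ hq']; simp only [mul_assoc]
        _ = (α * q * α⁻¹) * (q⁻¹ * x) := by rw [← h4]
        _ = α * q * α⁻¹ * q⁻¹ * x := (mul_assoc _ _ _).symm
  -- counting
  have hpair := pairing_count Q Q₀ z hz1 hz2 (fun r hr => hzc r (hQ₀Q hr)) hzc
    (fun h hh r hr => hcomm h hh r (hQ₀Q hr))
  have hZ2 : Q₀ ⊓ Subgroup.centralizer (Q : Set G) = Subgroup.zpowers z := by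
    ext x
    rw [hZ, Subgroup.mem_inf, Subgroup.mem_centralizer_iff]
    constructor
    · rintro ⟨hx, hc⟩
      exact hcen x (hQ₀Q hx) hc
    · rintro (rfl | rfl)
      · exact ⟨Q₀.one_mem, fun q _ => by simp⟩
      · exact ⟨hzQ₀, fun q hq => hzc q hq⟩
  have hcard2 : Nat.card ↥(Subgroup.zpowers z) = 2 := by
    rw [Nat.card_zpowers]
    exact orderOf_eq_prime (by rw [pow_two]; exact hz2) hz1
  rw [hZ2, hcard2] at hpair
  have hinj : 2 * Nat.card ↥Q ≤ Nat.card ↥W * Nat.card ↥Q₀ := by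
    classical
    let f : (↥Q ⧸ Q₀.subgroupOf Q) × ↥(Subgroup.zpowers z) → ↥W := fun p =>
      ⟨(p.2 : G) * (α * ((Quotient.out p.1 : ↥Q) : G) * α⁻¹ * ((Quotient.out p.1 : ↥Q) : G)⁻¹),
        W.mul_mem ((Subgroup.zpowers_le.mpr hzW) p.2.2) (hκW _ (Quotient.out p.1).2)⟩
    have hf : Function.Injective f := by
      rintro ⟨X₁, c₁⟩ ⟨X₂, c₂⟩ h
      have h' : (c₁ : G) * (α * ((Quotient.out X₁ : ↥Q) : G) * α⁻¹ *
          ((Quotient.out X₁ : ↥Q) : G)⁻¹) = (c₂ : G) * (α * ((Quotient.out X₂ : ↥Q) : G) * α⁻¹ *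
          ((Quotient.out X₂ : ↥Q) : G)⁻¹) := congrArg Subtype.val h
      have hq₁ : ((Quotient.out X₁ : ↥Q) : G) ∈ Q := (Quotient.out X₁).2
      have hq₂ : ((Quotient.out X₂ : ↥Q) : G) ∈ Q := (Quotient.out X₂).2
      have hX : X₁ = X₂ := by
        rw [← QuotientGroup.out_eq' X₁, ← QuotientGroup.out_eq' X₂, QuotientGroup.eq,
          Subgroup.mem_subgroupOf, hQ₀]
        refine ⟨((Quotient.out X₁)⁻¹ * Quotient.out X₂ : ↥Q).2, ?_⟩
        have he : (c₂ : G)⁻¹ * c₁ ∈ Subgroup.zpowers z :=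
          Subgroup.mul_mem _ (Subgroup.inv_mem _ c₂.2) c₁.2
        have he' := he
        rw [hZ] at he'
        obtain ⟨he1, -, -, -⟩ := hcz _ he'
        simp only [Subgroup.coe_mul, InvMemClass.coe_inv]
        generalize ((Quotient.out X₁ : ↥Q) : G) = q₁ at h' hq₁ ⊢
        generalize ((Quotient.out X₂ : ↥Q) : G) = q₂ at h' hq₂ ⊢
        have h2 : α * q₂ * α⁻¹ * q₂⁻¹ = (c₂ : G)⁻¹ * c₁ * (α * q₁ * α⁻¹ * q₁⁻¹) := by
          rw [mul_assoc ((c₂ : G)⁻¹) (c₁ : G), h', inv_mul_cancel_left]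
        have h3 : α * (q₁⁻¹ * q₂) * α⁻¹ * (q₁⁻¹ * q₂)⁻¹ = (c₂ : G)⁻¹ * c₁ := by
          calc α * (q₁⁻¹ * q₂) * α⁻¹ * (q₁⁻¹ * q₂)⁻¹
              = (α * q₁ * α⁻¹)⁻¹ * (α * q₂ * α⁻¹ * q₂⁻¹) * q₁ := by group
            _ = (α * q₁ * α⁻¹)⁻¹ * ((c₂ : G)⁻¹ * c₁ * (α * q₁ * α⁻¹ * q₁⁻¹)) * q₁ := by rw [h2]
            _ = (α * q₁ * α⁻¹)⁻¹ * ((c₂ : G)⁻¹ * c₁) * (α * q₁ * α⁻¹) := by group
            _ = (c₂ : G)⁻¹ * c₁ := by
                rw [he1 _ (Q.inv_mem (hαQ q₁ hq₁)), mul_assoc, inv_mul_cancel, mul_one]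
        rw [h3]
        exact he
      subst hX
      have h4 : (c₁ : G) = c₂ := mul_right_cancel h'
      exact Prod.ext rfl (Subtype.ext h4)
    have h1 := Nat.card_le_card_of_injective f hf
    rw [Nat.card_prod, hcard2] at h1
    have h2 : Nat.card ↥(Q₀.subgroupOf Q) * (Q₀.subgroupOf Q).index = Nat.card ↥Q :=
      Subgroup.card_mul_index _
    have h3 : Nat.card ↥(Q₀.subgroupOf Q) = Nat.card ↥Q₀ :=
      Nat.card_congr (Subgroup.subgroupOfEquivOfLe hQ₀Q).toEquiv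
    have h4 : (Q₀.subgroupOf Q).index = Nat.card (↥Q ⧸ Q₀.subgroupOf Q) := rfl
    rw [h3, h4] at h2
    calc 2 * Nat.card ↥Q = Nat.card ↥Q₀ * (Nat.card (↥Q ⧸ Q₀.subgroupOf Q) * 2) := by
          rw [← h2]; ring
      _ ≤ Nat.card ↥Q₀ * Nat.card ↥W := Nat.mul_le_mul_left _ h1
      _ = Nat.card ↥W * Nat.card ↥Q₀ := mul_comm _ _
  have hcardle : Nat.card ↥(Q ⊓ Subgroup.centralizer (Q₀ : Set G)) ≤ Nat.card ↥W := by
    have hpos : 0 < Nat.card ↥Q₀ := Nat.card_pos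
    have h1 : Nat.card ↥(Q ⊓ Subgroup.centralizer (Q₀ : Set G)) * Nat.card ↥Q₀ ≤
        Nat.card ↥W * Nat.card ↥Q₀ := by rw [hpair]; exact hinj
    exact Nat.le_of_mul_le_mul_right h1 hpos
  have hZle : (Subgroup.center ↥Q₀).map Q₀.subtype ≤ Q ⊓ Subgroup.centralizer (Q₀ : Set G) := by
    intro x hx
    rw [mem_center_map_subtype] at hx
    exact Subgroup.mem_inf.mpr ⟨hQ₀Q hx.1, Subgroup.mem_centralizer_iff.mpr hx.2⟩
  exact Subgroup.eq_of_le_of_card_ge hWle (le_trans (Subgroup.card_le_of_le hZle) hcardle)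

end Cfsg.Agent.H36
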