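import Mathlib
import Cfsg.Agent.H58.FzBasic

/-!
# S4306, step 3a (team piece for helper58)

`step3a`: in the minimal configuration with `y` centralizing `S` and `s ≠ v`, a central
`A`,`S`-invariant subgroup `E` of `R` without fixed points on `V` has no subgroup `K` of
index `r` with `C_V(K) ≠ 1` that is not normalized by `y`.
-/

set_option autoImplicit false
set_option linter.style.haveILetI false
set_option linter.unusedVariables false
set_option linter.unusedSectionVars false

namespace Cfsg.Agent.H36.Fz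

open Cfsg.Agent.H58.Fz
open Cfsg.Agent.H58.FrobAct Cfsg.Agent.H58.Ward
open scoped commutatorElement

universe u

variable {X : Type u} [Group X]

/-- The conjugate subgroup `g L g⁻¹`. -/
def cj (g : X) (L : Subgroup X) : Subgroup X := L.map (MulAut.conj g).toMonoidHom

theorem mem_cj (g : X) (L : Subgroup X) (a : X) : a ∈ cj g L ↔ ∃ b ∈ L, g * b * g⁻¹ = a := by
  unfold cj
  rw [Subgroup.mem_map]
  rfl

theorem card_cj (g : X) (L : Subgroup X) : Nat.card (cj g L) = Nat.card L := by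
  unfold cj
  exact Subgroup.card_map_of_injective (MulAut.conj g).injective

theorem cj_le (g : X) (L E : Subgroup X) (hL : L ≤ E)
    (hg : g ∈ Subgroup.normalizer (E : Set X)) : cj g L ≤ E := by
  intro a ha
  obtain ⟨b, hb, rfl⟩ := (mem_cj g L a).mp ha
  exact conj_mem_of_mem_normalizer hg (hL hb)

theorem mem_normalizer_of_cj_eq [Finite X] (g : X) (L : Subgroup X) (h : cj g L = L) :
    g ∈ Subgroup.normalizer (L : Set X) := by
  apply mem_normalizer_of_conj
  intro b hb
  rw [← h]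
  exact (mem_cj g L _).mpr ⟨b, hb, rfl⟩

theorem conj_mem_cent_cj (V L : Subgroup X) (g w : X)
    (hg : g ∈ Subgroup.normalizer (V : Set X))
    (hw : w ∈ V ⊓ Subgroup.centralizer (L : Set X)) :
    g * w * g⁻¹ ∈ V ⊓ Subgroup.centralizer ((cj g L : Subgroup X) : Set X) := by
  refine Subgroup.mem_inf.mpr ⟨conj_mem_of_mem_normalizer hg hw.1, ?_⟩
  rw [Subgroup.mem_centralizer_iff]
  intro a ha
  obtain ⟨b, hb, rfl⟩ := (mem_cj g L a).mp ha
  have h1 := (Subgroup.mem_centralizer_iff.mp hw.2) b hb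
  calc g * b * g⁻¹ * (g * w * g⁻¹) = g * (b * w) * g⁻¹ := by group
    _ = g * (w * b) * g⁻¹ := by rw [h1]
    _ = g * w * g⁻¹ * (g * b * g⁻¹) := by group

/-- Two distinct subgroups of prime index `r` in `E` generate `E`. -/
theorem sup_eq_of_index [Finite X] (r : ℕ) (hr : r.Prime) (E K L : Subgroup X)
    (hK : K ≤ E) (hL : L ≤ E)
    (hcK : Nat.card E = r * Nat.card K) (hcL : Nat.card E = r * Nat.card L) (hne : L ≠ K) :
    K ⊔ L = E := by
  have hJ : K ⊔ L ≤ E := sup_le hK hL
  have h1 : Nat.card K ∣ Nat.card (K ⊔ L : Subgroup X) := Subgroup.card_dvd_of_le le_sup_left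
  have h2 : Nat.card (K ⊔ L : Subgroup X) ∣ Nat.card E := Subgroup.card_dvd_of_le hJ
  obtain ⟨m, hm⟩ := h1
  have hKpos : 0 < Nat.card K := Nat.card_pos
  have h3 : m ∣ r := by
    rw [hm, hcK, mul_comm r] at h2
    exact Nat.dvd_of_mul_dvd_mul_left hKpos h2
  rcases (Nat.dvd_prime hr).mp h3 with h | h
  · exfalso
    rw [h, mul_one] at hm
    have h4 : K = K ⊔ L := Subgroup.eq_of_le_of_card_ge le_sup_left hm.le
    have h5 : L ≤ K := by rw [h4]; exact le_sup_right
    have h6 : Nat.card L = Nat.card K := by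
      have : r * Nat.card L = r * Nat.card K := by rw [← hcL, ← hcK]
      exact Nat.eq_of_mul_eq_mul_left hr.pos this
    exact hne (Subgroup.eq_of_le_of_card_ge h5 h6.ge)
  · apply Subgroup.eq_of_le_of_card_ge hJ
    rw [hm, h, hcK, mul_comm]

/-- The span of the `C_V(L)` for `L` of index `r` in `E`, `L ≠ K`. -/
def oth (V E K : Subgroup X) (r : ℕ) : Subgroup X :=
  ⨆ M ∈ {M : Subgroup X | ∃ L : Subgroup X, L ≤ E ∧ Nat.card E = r * Nat.card L ∧ L ≠ K ∧
      M = V ⊓ Subgroup.centralizer (L : Set X)}, M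

theorem le_oth (V E K L : Subgroup X) (r : ℕ) (hL : L ≤ E)
    (hc : Nat.card E = r * Nat.card L) (hne : L ≠ K) :
    V ⊓ Subgroup.centralizer (L : Set X) ≤ oth V E K r := by
  unfold oth
  exact le_biSup (fun M => M) ⟨L, hL, hc, hne, rfl⟩

theorem indep [Finite X] (ind : IND X) (V E K : Subgroup X) (r : ℕ) (hr : r.Prime)
    (hVc : ∀ a ∈ V, ∀ b ∈ V, a * b = b * a)
    (hEc : ∀ a ∈ E, ∀ b ∈ E, a * b = b * a)
    (hEV : E ≤ Subgroup.normalizer (V : Set X))
    (hcop : (Nat.card E).Coprime (Nat.card V))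
    (hVE : V ⊓ Subgroup.centralizer (E : Set X) = ⊥)
    (hK : K ≤ E) (hcK : Nat.card E = r * Nat.card K) :
    (V ⊓ Subgroup.centralizer (K : Set X)) ⊓ oth V E K r = ⊥ := by
  unfold oth
  apply ind V K _ hVc (hK.trans hEV) (cop_of_le hcop hK le_rfl)
  rintro M ⟨L, hL, hcL, hne, rfl⟩
  refine ⟨inf_le_left, ?_, ?_⟩
  · intro g hg
    exact normalizer_inf_centralizer V L g (hEV (hK hg))
      (mem_normalizer_of_comm L g (fun b hb => hEc g (hK hg) b (hL hb)))
  · rw [eq_bot_iff, ← hVE]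
    intro x hx
    obtain ⟨⟨hxV, hxL⟩, hxK⟩ := hx
    refine ⟨hxV, ?_⟩
    have hsup := sup_eq_of_index r hr E K L hK hL hcK hcL hne
    have hle : K ⊔ L ≤ Subgroup.centralizer ({x} : Set X) := by
      apply sup_le
      · intro a ha
        rw [Subgroup.mem_centralizer_iff]
        intro b hb
        rw [Set.mem_singleton_iff] at hb
        subst hb
        exact ((Subgroup.mem_centralizer_iff.mp hxK) a ha).symm
      · intro a ha
        rw [Subgroup.mem_centralizer_iff]
        intro b hb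
        rw [Set.mem_singleton_iff] at hb
        subst hb
        exact ((Subgroup.mem_centralizer_iff.mp hxL) a ha).symm
    rw [hsup] at hle
    show x ∈ Subgroup.centralizer (E : Set X)
    rw [Subgroup.mem_centralizer_iff]
    intro a ha
    exact ((Subgroup.mem_centralizer_iff.mp (hle ha)) x rfl).symm

variable [Finite X] {p q k v r s : ℕ} {V R S A : Subgroup X} {y x : X}

/-- `S` centralizes `C_V(K)` for every `K` of index `r` in `E` not normalized by `y`. -/
theorem claimA (ind : IND X) (c : FCfg p q k v r s V R S A y x)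
    (hSy : S ≤ Subgroup.centralizer {y}) (hsv : s ≠ v)
    (E : Subgroup X) (hER : E ≤ R) (hEcR : E ≤ Subgroup.centralizer (R : Set X))
    (hSE : S ≤ Subgroup.normalizer (E : Set X)) (hAE : A ≤ Subgroup.normalizer (E : Set X))
    (hVE : V ⊓ Subgroup.centralizer (E : Set X) = ⊥)
    (K : Subgroup X) (hKE : K ≤ E) (hidx : Nat.card E = r * Nat.card K)
    (hyK : y ∉ Subgroup.normalizer (K : Set X))
    (w : X) (hw : w ∈ V ⊓ Subgroup.centralizer (K : Set X)) (σ : X) (hσ : σ ∈ S) :
    σ * w * σ⁻¹ = w := by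
  have hEc : ∀ a ∈ E, ∀ b ∈ E, a * b = b * a := by
    intro a ha b hb
    exact ((Subgroup.mem_centralizer_iff.mp (hEcR ha)) b (hER hb)).symm
  have hEV : E ≤ Subgroup.normalizer (V : Set X) := hER.trans c.hRV
  have hcopEV : (Nat.card E).Coprime (Nat.card V) := cop_of_le c.copRV hER le_rfl
  have hind := indep ind V E K r c.hr c.hVc hEc hEV hcopEV hVE hKE hidx
  have hYA : Subgroup.zpowers y ≤ A := by
    rw [Subgroup.zpowers_le]; exact c.hyA
  have hYV : Subgroup.zpowers y ≤ Subgroup.normalizer (V : Set X) := hYA.trans c.hAV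
  have hYE : Subgroup.zpowers y ≤ Subgroup.normalizer (E : Set X) := hYA.trans hAE
  have hYK : ∀ h ∈ Subgroup.zpowers y, h ∈ Subgroup.normalizer (K : Set X) → h = 1 := by
    intro h hh hhK
    by_contra h1
    have h2 := mem_zpowers_of_prime q c.hq y h c.hy hh h1
    have h3 : Subgroup.zpowers h ≤ Subgroup.normalizer (K : Set X) := by
      rw [Subgroup.zpowers_le]; exact hhK
    exact hyK (h3 h2)
  have hσy : ∀ h ∈ Subgroup.zpowers y, h * σ = σ * h := by
    intro h hh
    have h1 : σ ∈ Subgroup.centralizer ((Subgroup.zpowers y : Subgroup X) : Set X) := by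
      rw [centralizer_zpowers]; exact hSy hσ
    exact (Subgroup.mem_centralizer_iff.mp h1) h hh
  have hσV : σ ∈ Subgroup.normalizer (V : Set X) := c.hSV hσ
  have hσE : σ ∈ Subgroup.normalizer (E : Set X) := hSE hσ
  have hwV : w ∈ V := hw.1
  have hσw : σ * w * σ⁻¹ ∈ V := conj_mem_of_mem_normalizer hσV hwV
  obtain ⟨z, hz⟩ : ∃ z : X, z = σ * w * σ⁻¹ * w⁻¹ := ⟨_, rfl⟩
  have hzV : z ∈ V := by rw [hz]; exact V.mul_mem hσw (V.inv_mem hwV)
  have hzC : z ∈ ⁅V, S⁆ := by
    rw [hz, Subgroup.commutator_comm]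
    exact Subgroup.commutator_mem_commutator hσ hwV
  have hT1 : ⁅V, S⁆ ⊓
      (V ⊓ Subgroup.centralizer ((Subgroup.zpowers y : Subgroup X) : Set X)) = ⊥ := by
    have h1 := centralizer_inf_commutator_eq_bot V S c.hVc c.hSV (c.copSV hsv)
    rw [eq_bot_iff, ← h1]
    intro g hg
    refine ⟨⟨hg.2.1, ?_⟩, hg.1⟩
    have h2 : g ∈ V ⊓ Subgroup.centralizer {y} := by
      rw [← centralizer_zpowers]; exact hg.2
    have h3 := c.hVS hsv h2
    rw [inf_eq_left.mpr hSy] at h3
    exact h3
  have hnt : ∀ T₂ : Subgroup X,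
      (∀ h ∈ Subgroup.zpowers y, h ≠ 1 → h * z * h⁻¹ ∈ T₂) → z ∈ T₂ := by
    intro T₂ h2
    apply norm_trick V (Subgroup.zpowers y) ⁅V, S⁆ T₂ c.hVc hYV z hzV _ hT1 h2
    intro h hh
    exact conj_mem_of_mem_normalizer
      (normalizer_commutator V S h (hYV hh) (c.hAS (hYA hh))) hzC
  have hzconj : ∀ h ∈ Subgroup.zpowers y,
      h * z * h⁻¹ = (h * σ) * w * (h * σ)⁻¹ * (h * w * h⁻¹)⁻¹ := by
    intro h hh
    rw [hz]; group
  have hothY : ∀ h ∈ Subgroup.zpowers y, h ≠ 1 →
      ∀ t ∈ V ⊓ Subgroup.centralizer (K : Set X), h * t * h⁻¹ ∈ oth V E K r := by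
    intro h hh hne t ht
    have h1 := conj_mem_cent_cj V K h t (hYV hh) ht
    refine le_oth V E K (cj h K) r (cj_le h K E hKE (hYE hh))
      (by rw [card_cj]; exact hidx) ?_ h1
    intro heq
    exact hne (hYK h hh (mem_normalizer_of_cj_eq h K heq))
  by_cases hex : ∃ h ∈ Subgroup.zpowers y, h * σ ∈ Subgroup.normalizer (K : Set X)
  · obtain ⟨h, hh, hhσ⟩ := hex
    have hh1 : h = 1 := by
      obtain ⟨n, hn⟩ : ∃ n : ℕ, n = Nat.card S := ⟨_, rfl⟩
      have hσn : σ ^ n = 1 := by
        have h1 := orderOf_dvd_natCard (⟨σ, hσ⟩ : S)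
        rw [Subgroup.orderOf_mk] at h1
        rw [hn]; exact orderOf_dvd_iff_pow_eq_one.mp h1
      have h1 : (h * σ) ^ n = h ^ n := by
        rw [(show Commute h σ from hσy h hh).mul_pow, hσn, mul_one]
      have h2 : h ^ n ∈ Subgroup.normalizer (K : Set X) := by
        rw [← h1]; exact Subgroup.pow_mem _ hhσ n
      have hhq : h ^ q = 1 := by
        obtain ⟨m, rfl⟩ := Subgroup.mem_zpowers_iff.mp hh
        rw [← zpow_natCast, ← zpow_mul, mul_comm, zpow_mul, zpow_natCast, c.hy, one_zpow]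
      have hcop : n.Coprime (orderOf h) := by
        rw [hn]
        exact Nat.Coprime.coprime_dvd_right (orderOf_dvd_of_pow_eq_one hhq) c.copqS
      obtain ⟨m, hm⟩ := exists_pow_eq_self_of_coprime hcop
      apply hYK h hh
      rw [← hm]; exact Subgroup.pow_mem _ h2 m
    rw [hh1, one_mul] at hhσ
    have hzK : z ∈ V ⊓ Subgroup.centralizer (K : Set X) := by
      rw [hz]
      exact Subgroup.mul_mem _
        (conj_mem_of_mem_normalizer (normalizer_inf_centralizer V K σ hσV hhσ) hw)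
        (Subgroup.inv_mem _ hw)
    have hzT : z ∈ oth V E K r := by
      apply hnt
      intro h hh hne
      exact hothY h hh hne z hzK
    have h3 : z ∈ (⊥ : Subgroup X) := by
      rw [← hind]; exact ⟨hzK, hzT⟩
    rw [Subgroup.mem_bot, hz] at h3
    exact mul_inv_eq_one.mp h3
  · push Not at hex
    have hmem : ∀ h ∈ Subgroup.zpowers y, (h * σ) * w * (h * σ)⁻¹ ∈ oth V E K r := by
      intro h hh
      have hhσV : h * σ ∈ Subgroup.normalizer (V : Set X) :=
        Subgroup.mul_mem _ (hYV hh) hσV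
      have hhσE : h * σ ∈ Subgroup.normalizer (E : Set X) :=
        Subgroup.mul_mem _ (hYE hh) hσE
      have h1 := conj_mem_cent_cj V K (h * σ) w hhσV hw
      refine le_oth V E K (cj (h * σ) K) r (cj_le _ K E hKE hhσE)
        (by rw [card_cj]; exact hidx) ?_ h1
      intro heq
      exact hex h hh (mem_normalizer_of_cj_eq (h * σ) K heq)
    have hzT : z ∈ oth V E K r := by
      apply hnt
      intro h hh hne
      rw [hzconj h hh]
      exact Subgroup.mul_mem _ (hmem h hh) (Subgroup.inv_mem _ (hothY h hh hne w hw))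
    have hwT : w ∈ oth V E K r := by
      have h1 := hmem 1 (Subgroup.one_mem _)
      rw [one_mul] at h1
      have h2 : w = z⁻¹ * (σ * w * σ⁻¹) := by rw [hz]; group
      rw [h2]
      exact Subgroup.mul_mem _ (Subgroup.inv_mem _ hzT) h1
    have h3 : w ∈ (⊥ : Subgroup X) := by
      rw [← hind]; exact ⟨hw, hwT⟩
    rw [Subgroup.mem_bot] at h3
    rw [h3]; group

/-- **S4306-S3A** (exact statement posted by helper58). -/
theorem step3a (ind : IND X) (c : FCfg p q k v r s V R S A y x)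
    (hSy : S ≤ Subgroup.centralizer {y}) (hsv : s ≠ v)
    (E K : Subgroup X) (hER : E ≤ R) (hEcR : E ≤ Subgroup.centralizer (R : Set X))
    (hSE : S ≤ Subgroup.normalizer (E : Set X)) (hAE : A ≤ Subgroup.normalizer (E : Set X))
    (hVE : V ⊓ Subgroup.centralizer (E : Set X) = ⊥)
    (hKE : K ≤ E) (hidx : Nat.card E = r * Nat.card K)
    (hW : V ⊓ Subgroup.centralizer (K : Set X) ≠ ⊥)
    (hyK : y ∉ Subgroup.normalizer (K : Set X)) : False := by
  obtain ⟨𝒦, h𝒦⟩ : ∃ 𝒦 : Set (Subgroup X), 𝒦 = {M | ∃ L : Subgroup X, L ≤ E ∧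
      Nat.card E = r * Nat.card L ∧ y ∉ Subgroup.normalizer (L : Set X) ∧
      M = V ⊓ Subgroup.centralizer (L : Set X)} := ⟨_, rfl⟩
  obtain ⟨V₁, hV₁⟩ : ∃ V₁ : Subgroup X, V₁ = ⨆ M ∈ 𝒦, M := ⟨_, rfl⟩
  have hle : ∀ L : Subgroup X, L ≤ E → Nat.card E = r * Nat.card L →
      y ∉ Subgroup.normalizer (L : Set X) → V ⊓ Subgroup.centralizer (L : Set X) ≤ V₁ := by
    intro L hL hcL hyL
    rw [hV₁]
    exact le_biSup (fun M => M) (by rw [h𝒦]; exact ⟨L, hL, hcL, hyL, rfl⟩)
  have hV₁V : V₁ ≤ V := by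
    rw [hV₁]
    apply iSup₂_le
    intro M hM
    rw [h𝒦] at hM
    obtain ⟨L, -, -, -, rfl⟩ := hM
    exact inf_le_left
  have hV₁S : V₁ ≤ Subgroup.centralizer (S : Set X) := by
    rw [hV₁]
    apply iSup₂_le
    intro M hM
    rw [h𝒦] at hM
    obtain ⟨L, hL, hcL, hyL, rfl⟩ := hM
    intro w hw
    rw [Subgroup.mem_centralizer_iff]
    intro σ hσ
    have h1 := claimA ind c hSy hsv E hER hEcR hSE hAE hVE L hL hcL hyL w hw σ hσ
    calc σ * w = σ * w * σ⁻¹ * σ := by group
      _ = w * σ := by rw [h1]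
  have hV₁ne : V₁ ≠ ⊥ := by
    intro h
    apply hW
    rw [eq_bot_iff, ← h]
    exact hle K hKE hidx hyK
  have hSn : S ≤ Subgroup.normalizer (V₁ : Set X) := by
    intro g hg
    apply mem_normalizer_of_comm
    intro w hw
    exact (Subgroup.mem_centralizer_iff.mp (hV₁S hw) g hg)
  have hconj : ∀ g : X, g ∈ Subgroup.normalizer (V : Set X) →
      g ∈ Subgroup.normalizer (E : Set X) →
      (∀ L : Subgroup X, L ≤ E → y ∉ Subgroup.normalizer (L : Set X) →
        y ∉ Subgroup.normalizer ((cj g L : Subgroup X) : Set X)) →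
      g ∈ Subgroup.normalizer (V₁ : Set X) := by
    intro g hgV hgE hgy
    apply mem_normalizer_of_conj
    have h1 : V₁ ≤ V₁.comap (MulAut.conj g).toMonoidHom := by
      nth_rewrite 1 [hV₁]
      apply iSup₂_le
      intro M hM
      rw [h𝒦] at hM
      obtain ⟨L, hL, hcL, hyL, rfl⟩ := hM
      intro w hw
      rw [Subgroup.mem_comap]
      have h2 := conj_mem_cent_cj V L g w hgV hw
      exact hle (cj g L) (cj_le g L E hL hgE) (by rw [card_cj]; exact hcL) (hgy L hL hyL) h2
    intro w hw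
    exact h1 hw
  have hRn : R ≤ Subgroup.normalizer (V₁ : Set X) := by
    intro g hg
    apply hconj g (c.hRV hg) ?_ ?_
    · apply mem_normalizer_of_comm
      intro e he
      exact (Subgroup.mem_centralizer_iff.mp (hEcR he)) g hg
    · intro L hL hyL
      have hcj : cj g L = L := by
        ext a
        rw [mem_cj]
        constructor
        · rintro ⟨b, hb, rfl⟩
          have h1 : g * b = b * g := (Subgroup.mem_centralizer_iff.mp (hEcR (hL hb))) g hg
          rw [h1]; simpa using hb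
        · intro ha
          refine ⟨a, ha, ?_⟩
          have h1 : g * a = a * g := (Subgroup.mem_centralizer_iff.mp (hEcR (hL ha))) g hg
          rw [h1]; group
      rw [hcj]; exact hyL
  have hAn : A ≤ Subgroup.normalizer (V₁ : Set X) := by
    intro g hg
    apply hconj g (c.hAV hg) (hAE hg)
    intro L hL hyL hy'
    have h1 : g⁻¹ * y * g ∈ Subgroup.normalizer (L : Set X) := by
      apply mem_normalizer_of_conj
      intro b hb
      have h2 : g * b * g⁻¹ ∈ cj g L := (mem_cj g L _).mpr ⟨b, hb, rfl⟩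
      have h3 := conj_mem_of_mem_normalizer hy' h2
      obtain ⟨b', hb', hb'e⟩ := (mem_cj g L _).mp h3
      have h4 : g⁻¹ * y * g * b * (g⁻¹ * y * g)⁻¹ = b' := by
        have h5 : g⁻¹ * y * g * b * (g⁻¹ * y * g)⁻¹ = g⁻¹ * (y * (g * b * g⁻¹) * y⁻¹) * g := by
          group
        rw [h5, ← hb'e]; group
      rw [h4]; exact hb'
    have h5 : g⁻¹ * y * g ∈ Subgroup.zpowers y := by
      have h6 := conj_mem_of_mem_normalizer (c.hAzy (A.inv_mem hg)) (Subgroup.mem_zpowers y)
      rwa [inv_inv] at h6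
    have h6 : g⁻¹ * y * g ≠ 1 := by
      intro h
      apply c.hy1
      have h7 : y = g * (g⁻¹ * y * g) * g⁻¹ := by group
      rw [h7, h]; group
    have h7 := mem_zpowers_of_prime q c.hq y _ c.hy h5 h6
    have h8 : Subgroup.zpowers (g⁻¹ * y * g) ≤ Subgroup.normalizer (L : Set X) := by
      rw [Subgroup.zpowers_le]; exact h1
    exact hyL (h8 h7)
  rcases c.hirr V₁ hV₁V hRn hSn hAn with h | h
  · exact hV₁ne h
  · apply c.hSne
    apply c.faith S le_sup_right
    rw [← h]
    exact Subgroup.le_centralizer_iff.mp hV₁S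

end Cfsg.Agent.H36.Fz
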