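import Cfsg.Agent.H81.GL23Defs

/-!
# S0197-LIFT (helper36 for helper81): from the centralizer to the group
-/

set_option autoImplicit false

namespace Cfsg.Agent.H36.GL23

open Cfsg

universe u

/-- LIFT: from the centralizer to the group. -/
theorem lift : Cfsg.Agent.H81.GL23.StmtLift.{u} := by
  intro G _ _ t t' ht' hex
  obtain ⟨x0, v0, hL⟩ := hex
  have hmemC : ∀ g : G, g * t = t * g → g ∈ Subgroup.centralizer ({t} : Set G) := by
    intro g hg
    rw [Subgroup.mem_centralizer_iff]
    intro h hh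
    rw [Set.mem_singleton_iff] at hh
    rw [hh]; exact hg.symm
  have hto : orderOf t = 2 := by
    rw [← ht', Subgroup.orderOf_coe]; exact hL.ht
  have htt : t * t = 1 := by
    have := pow_orderOf_eq_one t
    rw [hto, pow_two] at this; exact this
  have htinv : t⁻¹ = t := inv_eq_of_mul_eq_one_right htt
  have hx4 : (x0 : G) ^ 4 = t := by
    have h := congrArg Subtype.val hL.hx4
    rw [ht'] at h
    simpa using h
  have hv3 : (v0 : G) ^ 3 = t := by
    have h := congrArg Subtype.val hL.hv3
    rw [ht'] at h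
    simpa using h
  have hCx : ∀ g : G, g * (x0 : G) = (x0 : G) * g → g * t = t * g := by
    intro g hg
    rw [← hx4]
    exact Commute.pow_right hg 4
  have hCy : ∀ g : G, g * (x0 : G) ^ 2 = (x0 : G) ^ 2 * g → g * t = t * g := by
    intro g hg
    have h4 : (x0 : G) ^ 4 = ((x0 : G) ^ 2) ^ 2 := by rw [← pow_mul]
    rw [← hx4, h4]
    exact Commute.pow_right hg 2
  have hCv : ∀ g : G, g * (v0 : G) = (v0 : G) * g → g * t = t * g := by
    intro g hg
    rw [← hv3]
    exact Commute.pow_right hg 3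
  have hwC : ∀ w : G, w * (x0 : G) ^ 2 * w⁻¹ = ((x0 : G) ^ 2)⁻¹ →
      w ∈ Subgroup.centralizer ({t} : Set G) := by
    intro w hw
    apply hmemC
    have h1 : w * t * w⁻¹ = t := by
      calc w * t * w⁻¹ = w * ((x0 : G) ^ 2) ^ 2 * w⁻¹ := by rw [← pow_mul, hx4]
        _ = (w * (x0 : G) ^ 2 * w⁻¹) ^ 2 := (conj_pow).symm
        _ = (((x0 : G) ^ 2)⁻¹) ^ 2 := by rw [hw]
        _ = (((x0 : G) ^ 2) ^ 2)⁻¹ := inv_pow _ _
        _ = t := by rw [← pow_mul, hx4, htinv]
    exact mul_inv_eq_iff_eq_mul.1 h1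
  refine ⟨(x0 : G), (v0 : G), ?_⟩
  refine { ht := hto, hx := ?_, hx4 := hx4, hv := ?_, hv3 := hv3, centT := hL.card, centX := ?_,
           centY := ?_, centV := ?_, fusX := ?_, notX := ?_, fusV := ?_, invY := ?_ }
  · rw [Subgroup.orderOf_coe]; exact hL.hx
  · rw [Subgroup.orderOf_coe]; exact hL.hv
  · -- centX
    apply le_antisymm
    · intro g hg
      rw [Subgroup.mem_centralizer_iff] at hg
      have hgx : g * (x0 : G) = (x0 : G) * g := (hg _ rfl).symm
      have hgC : g ∈ Subgroup.centralizer ({t} : Set G) := hmemC g (hCx g hgx)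
      have hz := hL.centX ⟨g, hgC⟩ (Subtype.ext hgx)
      obtain ⟨k, hk⟩ := Subgroup.mem_zpowers_iff.1 hz
      rw [Subgroup.mem_zpowers_iff]
      refine ⟨k, ?_⟩
      have := congrArg Subtype.val hk
      simpa using this
    · rw [Subgroup.zpowers_le, Subgroup.mem_centralizer_iff]
      intro h hh
      rw [Set.mem_singleton_iff] at hh
      rw [hh]
  · -- centY
    apply le_antisymm
    · intro g hg
      rw [Subgroup.mem_centralizer_iff] at hg
      have hgx : g * (x0 : G) ^ 2 = (x0 : G) ^ 2 * g := (hg _ rfl).symm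
      have hgC : g ∈ Subgroup.centralizer ({t} : Set G) := hmemC g (hCy g hgx)
      have hz := hL.centY ⟨g, hgC⟩ (Subtype.ext (by simpa using hgx))
      obtain ⟨k, hk⟩ := Subgroup.mem_zpowers_iff.1 hz
      rw [Subgroup.mem_zpowers_iff]
      refine ⟨k, ?_⟩
      have := congrArg Subtype.val hk
      simpa using this
    · rw [Subgroup.zpowers_le, Subgroup.mem_centralizer_iff]
      intro h hh
      rw [Set.mem_singleton_iff] at hh
      rw [hh, ← pow_succ, ← pow_succ']
  · -- centV
    apply le_antisymm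
    · intro g hg
      rw [Subgroup.mem_centralizer_iff] at hg
      have hgx : g * (v0 : G) = (v0 : G) * g := (hg _ rfl).symm
      have hgC : g ∈ Subgroup.centralizer ({t} : Set G) := hmemC g (hCv g hgx)
      have hz := hL.centV ⟨g, hgC⟩ (Subtype.ext hgx)
      obtain ⟨k, hk⟩ := Subgroup.mem_zpowers_iff.1 hz
      rw [Subgroup.mem_zpowers_iff]
      refine ⟨k, ?_⟩
      have := congrArg Subtype.val hk
      simpa using this
    · rw [Subgroup.zpowers_le, Subgroup.mem_centralizer_iff]
      intro h hh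
      rw [Set.mem_singleton_iff] at hh
      rw [hh]
  · -- fusX
    obtain ⟨g, hg⟩ := hL.fusX
    refine ⟨(g : G), ?_⟩
    have := congrArg Subtype.val hg
    simpa using this
  · -- notX
    intro g hg
    have h1 : g * t * g⁻¹ = t := by
      calc g * t * g⁻¹ = g * (x0 : G) ^ 4 * g⁻¹ := by rw [hx4]
        _ = (g * (x0 : G) * g⁻¹) ^ 4 := (conj_pow).symm
        _ = ((x0 : G)⁻¹) ^ 4 := by rw [hg]
        _ = ((x0 : G) ^ 4)⁻¹ := inv_pow _ _
        _ = t := by rw [hx4, htinv]
    have hgC : g ∈ Subgroup.centralizer ({t} : Set G) := hmemC g (mul_inv_eq_iff_eq_mul.1 h1)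
    exact hL.notX ⟨g, hgC⟩ (Subtype.ext (by simpa using hg))
  · -- fusV
    obtain ⟨g, hg⟩ := hL.fusV
    refine ⟨(g : G), ?_⟩
    have := congrArg Subtype.val hg
    simpa using this
  · -- invY
    obtain ⟨s0, hs1, hs2⟩ := hL.invY
    refine ⟨(s0 : G), ?_, ?_⟩
    · intro w hw2 hw
      have hwc := hwC w hw
      obtain ⟨g, hg⟩ := hs1 ⟨w, hwc⟩ (by rw [← Subgroup.orderOf_coe]; exact hw2)
        (Subtype.ext (by simpa using hw))
      refine ⟨(g : G), ?_⟩
      have := congrArg Subtype.val hg
      simpa using this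
    · rw [← hs2]
      symm
      apply Nat.card_congr
      exact
        { toFun := fun w => ⟨(w.1 : G), by rw [Subgroup.orderOf_coe]; exact w.2.1, by
            have := congrArg Subtype.val w.2.2
            simpa using this⟩
          invFun := fun w => ⟨⟨w.1, hwC w.1 w.2.2⟩, by
            rw [← Subgroup.orderOf_coe]; exact w.2.1, Subtype.ext (by simpa using w.2.2)⟩
          left_inv := fun w => rfl
          right_inv := fun w => rfl }

example : Cfsg.Agent.H81.GL23.StmtLift.{u} := lift

end Cfsg.Agent.H36.GL23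

#print axioms Cfsg.Agent.H36.GL23.lift
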