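import Cfsg.Agent.H81.GL23Defs
import Cfsg.Agent.H4.BrauerBasic

/-!
# S0197-PERF (helper36 for helper81): no non-trivial linear characters
-/

set_option autoImplicit false

namespace Cfsg.Agent.H36.GL23

open Cfsg

universe u

/-- PERF: no nontrivial linear characters. -/
theorem perf : Cfsg.Agent.H81.GL23.StmtPerf.{u} := by
  intro G _ _ _ t x v hC χ hχ h1
  have hχc : IsCharacter G χ := by
    obtain ⟨m, ρ, -, h⟩ := hχ
    exact ⟨m, ρ, h⟩
  obtain ⟨lam, rfl⟩ := Cfsg.Agent.H4.exists_hom_of_linear hχc h1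
  rcases (lam.normal_ker).eq_bot_or_eq_top with hk | hk
  · exfalso
    have hinj : Function.Injective lam := (MonoidHom.ker_eq_bot_iff lam).1 hk
    have hcomm : ∀ a b : G, a * b = b * a := by
      intro a b
      apply hinj
      rw [map_mul, map_mul, mul_comm]
    obtain ⟨g, hg⟩ := hC.fusX
    rw [hcomm g x, mul_inv_cancel_right] at hg
    -- `x = x ^ 3`, so `x ^ 2 = 1`
    have h2 : x ^ 2 = 1 := by
      have h3 : x * x ^ 2 = x * 1 := by
        rw [mul_one, ← pow_succ', ← hg]
      exact mul_left_cancel h3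
    have h8 := orderOf_dvd_of_pow_eq_one h2
    rw [hC.hx] at h8
    omega
  · funext g
    have hg : g ∈ lam.ker := by rw [hk]; exact Subgroup.mem_top g
    change ((lam g : ℂˣ) : ℂ) = 1
    rw [MonoidHom.mem_ker.1 hg]; rfl

example : Cfsg.Agent.H81.GL23.StmtPerf.{u} := perf

end Cfsg.Agent.H36.GL23

#print axioms Cfsg.Agent.H36.GL23.perf
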