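import Cfsg.Agent.H81.GL23Defs

/-!
# S0197-SYL (helper36 for helper81): the Sylow 2-subgroups have order at most 16
-/

set_option autoImplicit false

namespace Cfsg.Agent.H36.GL23

open Cfsg

universe u

/-- SYL: the Sylow 2-subgroups have order 16. -/
theorem syl : Cfsg.Agent.H81.GL23.StmtSyl.{u} := by
  intro G _ _ t x v hC h32
  have h2p : Fact (Nat.Prime 2) := ⟨Nat.prime_two⟩
  -- a Sylow 2-subgroup containing `x`
  have hxp : IsPGroup 2 (Subgroup.zpowers x) := by
    rw [IsPGroup.iff_card]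
    refine ⟨3, ?_⟩
    rw [Nat.card_zpowers, hC.hx]; norm_num
  obtain ⟨T, hT⟩ := hxp.exists_le_sylow
  have hxT : x ∈ (T : Subgroup G) := hT (Subgroup.mem_zpowers x)
  have h32T : 2 ^ 5 ∣ Nat.card (T : Subgroup G) :=
    T.pow_dvd_card_of_pow_dvd_card (by simpa using h32)
  -- a central involution of `T`
  have hTp : IsPGroup 2 (T : Subgroup G) := T.isPGroup'
  have hnt : Nontrivial (T : Subgroup G) := by
    rw [← Finite.one_lt_card_iff_nontrivial]
    have := Nat.le_of_dvd Nat.card_pos h32T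
    omega
  have hcnt : Nontrivial (Subgroup.center (T : Subgroup G)) := hTp.center_nontrivial
  have hcp : IsPGroup 2 (Subgroup.center (T : Subgroup G)) :=
    hTp.to_subgroup (Subgroup.center (T : Subgroup G))
  have h2dvd : 2 ∣ Nat.card (Subgroup.center (T : Subgroup G)) := by
    rcases hcp.card_eq_or_dvd with h | h
    · exfalso
      have : Subsingleton (Subgroup.center (T : Subgroup G)) := (Nat.card_eq_one_iff_unique.1 h).1
      exact not_subsingleton _ this
    · exact h
  obtain ⟨z, hz⟩ := exists_prime_orderOf_dvd_card' 2 h2dvd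
  set zz : G := ((z : (T : Subgroup G)) : G) with hzz
  have hzz2 : orderOf zz = 2 := by
    rw [hzz, Subgroup.orderOf_coe, Subgroup.orderOf_coe]; exact hz
  have hzcomm : ∀ g ∈ (T : Subgroup G), g * zz = zz * g := by
    intro g hg
    have h1 : (⟨g, hg⟩ : (T : Subgroup G)) * (z : (T : Subgroup G)) =
        (z : (T : Subgroup G)) * ⟨g, hg⟩ := (Subgroup.mem_center_iff.1 z.2) ⟨g, hg⟩
    exact congrArg Subtype.val h1
  -- `zz` is a power of `x`, hence equal to `t`
  have hzx : zz ∈ Subgroup.zpowers x := by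
    rw [← hC.centX, Subgroup.mem_centralizer_iff]
    intro h hh
    rw [Set.mem_singleton_iff] at hh
    rw [hh]
    exact hzcomm x hxT
  obtain ⟨k, hk⟩ := Subgroup.mem_zpowers_iff.1 hzx
  have hzz1 : zz ≠ 1 := by
    intro h
    rw [h, orderOf_one] at hzz2
    omega
  have hzzsq : zz ^ 2 = 1 := by rw [← hzz2]; exact pow_orderOf_eq_one zz
  have ht2 : t ^ 2 = 1 := by rw [← hC.ht]; exact pow_orderOf_eq_one t
  have hzt : zz = t := by
    have h1 : x ^ (k * 2) = 1 := by
      rw [zpow_mul, hk]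
      exact_mod_cast hzzsq
    have h2 : ((orderOf x : ℕ) : ℤ) ∣ k * 2 := orderOf_dvd_iff_zpow_eq_one.2 h1
    rw [hC.hx] at h2
    obtain ⟨j, hj⟩ : (4 : ℤ) ∣ k := by
      obtain ⟨c, hc⟩ := h2
      exact ⟨c, by push_cast at hc; omega⟩
    have h3 : zz = t ^ j := by
      rw [← hk, hj, zpow_mul, ← hC.hx4]
      norm_cast
    rcases Int.emod_two_eq_zero_or_one j with hj2 | hj2
    · exfalso
      apply hzz1
      obtain ⟨m, hm⟩ : (2 : ℤ) ∣ j := Int.dvd_of_emod_eq_zero hj2
      rw [h3, hm, zpow_mul]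
      have : t ^ (2 : ℤ) = 1 := by exact_mod_cast ht2
      rw [this, one_zpow]
    · have hm : j = 2 * (j / 2) + 1 := by omega
      rw [h3, hm, zpow_add, zpow_mul]
      have : t ^ (2 : ℤ) = 1 := by exact_mod_cast ht2
      rw [this, one_zpow, one_mul, zpow_one]
  -- `T ≤ C_G(t)`
  have hTle : (T : Subgroup G) ≤ Subgroup.centralizer ({t} : Set G) := by
    intro g hg
    rw [Subgroup.mem_centralizer_iff]
    intro h hh
    rw [Set.mem_singleton_iff] at hh
    rw [hh, ← hzt]
    exact (hzcomm g hg).symm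
  have hdvd := Subgroup.card_dvd_of_le hTle
  rw [hC.centT] at hdvd
  have h48 : 2 ^ 5 ∣ 48 := h32T.trans hdvd
  norm_num at h48

example : Cfsg.Agent.H81.GL23.StmtSyl.{u} := syl

end Cfsg.Agent.H36.GL23

#print axioms Cfsg.Agent.H36.GL23.syl
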