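import Cfsg.Agent.H36.Pairing
import Cfsg.Agent.H36.Extraspecial
import Mathlib.GroupTheory.OrderOfElement
import Mathlib.GroupTheory.Coset.Card
import Mathlib.Algebra.Group.Subgroup.Finite

set_option autoImplicit false

/-!
Helper lemmas of seat helper36: an involution `t` normalizing a subgroup `Q` whose centre is `{1, z}`
and whose commutators lie in `{1, z}`, and with `[t, Q] ⊆ {1, z}`, lies in `Q * C_G(Q)`.
-/

namespace Cfsg.Agent.H36

/-- Core of S1756. Let `Q` be a finite subgroup with an involution `z ∈ Q` such that `{1, z}` is the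
centre of `Q` and contains all commutators of `Q`. If `t` (with `t * t = 1`) normalizes `Q` and
`[t, q] ∈ {1, z}` for all `q ∈ Q`, then `t ∈ Q ⊔ C_G(Q)`. -/
theorem mem_sup_centralizer_of_commutators {G : Type*} [Group G] [Finite G] (Q : Subgroup G) (z : G)
    (hzQ : z ∈ Q) (hz1 : z ≠ 1) (hz2 : z * z = 1) (hzc : ∀ q ∈ Q, q * z = z * q)
    (hcen : ∀ c ∈ Q, (∀ q ∈ Q, q * c = c * q) → c = 1 ∨ c = z)
    (hcommQ : ∀ a ∈ Q, ∀ b ∈ Q, a * b * a⁻¹ * b⁻¹ = 1 ∨ a * b * a⁻¹ * b⁻¹ = z)
    (t : G) (htt : t * t = 1) (hnorm : ∀ q ∈ Q, t * q * t⁻¹ ∈ Q)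
    (htc : ∀ q ∈ Q, t * q * t⁻¹ * q⁻¹ = 1 ∨ t * q * t⁻¹ * q⁻¹ = z) :
    t ∈ Q ⊔ Subgroup.centralizer (Q : Set G) := by
  by_cases htQ : t ∈ Q
  · exact Subgroup.mem_sup_left htQ
  have hinv : t⁻¹ = t := inv_eq_of_mul_eq_one_left htt
  have htt' : ∀ y : G, t * (t * y) = y := by
    intro y; rw [← mul_assoc, htt, one_mul]
  have hnorm' : ∀ q ∈ Q, t * q * t ∈ Q := by
    intro q hq
    have := hnorm q hq
    rwa [hinv] at this
  -- the subgroup `H = Q ∪ Q t`
  let H : Subgroup G :=
    { carrier := {g | g ∈ Q ∨ g * t ∈ Q}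
      mul_mem' := by
        rintro a b (ha | ha) (hb | hb)
        · exact Or.inl (Q.mul_mem ha hb)
        · right
          have : a * b * t = a * (b * t) := by rw [mul_assoc]
          rw [this]
          exact Q.mul_mem ha hb
        · right
          have : a * b * t = (a * t) * (t * b * t) := by simp [mul_assoc, htt']
          rw [this]
          exact Q.mul_mem ha (hnorm' b hb)
        · left
          have : a * b = (a * t) * (t * (b * t) * t) := by simp [mul_assoc, htt', htt]
          rw [this]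
          exact Q.mul_mem ha (hnorm' _ hb)
      one_mem' := Or.inl Q.one_mem
      inv_mem' := by
        rintro a (ha | ha)
        · exact Or.inl (Q.inv_mem ha)
        · right
          have : a⁻¹ * t = t * (a * t)⁻¹ * t := by
            rw [mul_inv_rev, hinv]; simp [htt']
          rw [this]
          exact hnorm' _ (Q.inv_mem ha) }
  have hHmem : ∀ g : G, g ∈ H ↔ g ∈ Q ∨ g * t ∈ Q := fun g => Iff.rfl
  have hQH : Q ≤ H := fun q hq => Or.inl hq
  have htH : t ∈ H := by
    rw [hHmem]; right; rw [htt]; exact Q.one_mem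
  -- `t` centralizes `z`
  have htz : t * z = z * t := by
    have h1 : t * z * t⁻¹ ∈ Q := hnorm z hzQ
    have h2 : ∀ q ∈ Q, q * (t * z * t⁻¹) = (t * z * t⁻¹) * q := by
      intro q hq
      have h3 : (t * q * t) * z = z * (t * q * t) := hzc _ (hnorm' q hq)
      have h4 : Commute (t * (t * q * t) * t⁻¹) (t * z * t⁻¹) := (Commute.conj_iff t).mpr h3
      have h5 : t * (t * q * t) * t⁻¹ = q := by rw [hinv]; simp [mul_assoc, htt', htt]
      rw [h5] at h4
      exact h4
    rcases hcen _ h1 h2 with h | h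
    · exfalso
      apply hz1
      have := congrArg (fun x => t⁻¹ * x * t) h
      simpa [mul_assoc] using this
    · have := congrArg (fun x => x * t) h
      simpa [mul_assoc] using this
  have hHz : ∀ h ∈ H, h * z = z * h := by
    rintro h (hh | hh)
    · exact hzc h hh
    · have h1 : Commute (h * t) z := hzc _ hh
      have h2 : Commute t⁻¹ z := (show Commute t z from htz).inv_left
      have h3 : Commute (h * t * t⁻¹) z := h1.mul_left h2
      have h4 : h * t * t⁻¹ = h := by simp [mul_assoc]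
      rw [h4] at h3
      exact h3
  have hdz : ∀ d : G, (d = 1 ∨ d = z) → ∀ q ∈ Q, q * d * q⁻¹ = d := by
    rintro d (rfl | rfl) q hq
    · simp
    · rw [hzc q hq, mul_assoc, mul_inv_cancel, mul_one]
  have hHc : ∀ h ∈ H, ∀ q ∈ Q, h * q * h⁻¹ * q⁻¹ = 1 ∨ h * q * h⁻¹ * q⁻¹ = z := by
    rintro h (hh | hh) q hq
    · exact hcommQ h hh q hq
    · have hexp : h * q * h⁻¹ * q⁻¹ =
          (h * t) * (t * q * t⁻¹ * q⁻¹) * (h * t)⁻¹ * ((h * t) * q * (h * t)⁻¹ * q⁻¹) := by
        rw [mul_inv_rev, hinv]; simp [mul_assoc, htt']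
      rw [hexp, hdz _ (htc q hq) _ hh]
      rcases htc q hq with h1 | h1 <;> rcases hcommQ _ hh q hq with h2 | h2
      · left; rw [h1, h2, one_mul]
      · right; rw [h1, h2, one_mul]
      · right; rw [h1, h2, mul_one]
      · left; rw [h1, h2, hz2]
  -- the count
  have hcount := pairing_count H Q z hz1 hz2 hzc hHz hHc
  have h2le : 2 ≤ Nat.card ↥(Q ⊓ Subgroup.centralizer (H : Set G)) := by
    have hzmem : z ∈ Q ⊓ Subgroup.centralizer (H : Set G) := by
      refine Subgroup.mem_inf.mpr ⟨hzQ, ?_⟩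
      rw [Subgroup.mem_centralizer_iff]
      exact fun h hh => hHz h hh
    have : Nontrivial ↥(Q ⊓ Subgroup.centralizer (H : Set G)) :=
      ⟨⟨⟨z, hzmem⟩, 1, fun h => hz1 (congrArg Subtype.val h)⟩⟩
    exact Finite.one_lt_card_iff_nontrivial.mpr this
  have hcardH : 2 * Nat.card Q ≤ Nat.card H := by
    obtain ⟨k, hk⟩ := Subgroup.card_dvd_of_le hQH
    have hQpos : 0 < Nat.card Q := Nat.card_pos
    have hne : Nat.card Q ≠ Nat.card H := by
      intro he
      have := Subgroup.eq_of_le_of_card_ge hQH (le_of_eq he.symm)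
      apply htQ
      rw [this]; exact htH
    have hk1 : k ≠ 1 := by
      rintro rfl
      apply hne; rw [hk, mul_one]
    have hk0 : k ≠ 0 := by
      rintro rfl
      have : 0 < Nat.card H := Nat.card_pos
      rw [hk, mul_zero] at this
      exact lt_irrefl _ this
    have hk2 : 2 ≤ k := by omega
    rw [hk, mul_comm]
    exact Nat.mul_le_mul_left _ hk2
  have h4le : 4 ≤ Nat.card ↥(H ⊓ Subgroup.centralizer (Q : Set G)) := by
    have hQpos : 0 < Nat.card Q := Nat.card_pos
    have h1 : 2 * (2 * Nat.card Q) ≤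
        Nat.card ↥(H ⊓ Subgroup.centralizer (Q : Set G)) * Nat.card Q := by
      rw [hcount]
      exact Nat.mul_le_mul h2le hcardH
    have h2 : 4 * Nat.card Q ≤ Nat.card ↥(H ⊓ Subgroup.centralizer (Q : Set G)) * Nat.card Q := by
      omega
    exact Nat.le_of_mul_le_mul_right h2 hQpos
  -- some element of `H ∩ C(Q)` lies outside `Q`
  have hex : ∃ h ∈ H ⊓ Subgroup.centralizer (Q : Set G), h ∉ Q := by
    by_contra hcon
    push Not at hcon
    have hle : H ⊓ Subgroup.centralizer (Q : Set G) ≤ Subgroup.zpowers z := by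
      intro g hg
      have hgQ := hcon g hg
      have hgc : ∀ q ∈ Q, q * g = g * q := Subgroup.mem_centralizer_iff.mp hg.2
      rcases hcen g hgQ hgc with h | h
      · rw [h]; exact Subgroup.one_mem _
      · rw [h]; exact Subgroup.mem_zpowers z
    have hcard := Subgroup.card_le_of_le hle
    have hord : orderOf z = 2 := orderOf_eq_prime (by rw [pow_two]; exact hz2) hz1
    rw [Nat.card_zpowers, hord] at hcard
    omega
  obtain ⟨h, hh, hhQ⟩ := hex
  have hht : h * t ∈ Q := by
    rcases hh.1 with h1 | h1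
    · exact absurd h1 hhQ
    · exact h1
  have : t = h⁻¹ * (h * t) := by simp
  rw [this, sup_comm]
  exact Subgroup.mul_mem_sup (Subgroup.inv_mem _ hh.2) hht

end Cfsg.Agent.H36
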