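import Mathlib
import Cfsg.Agent.H26.P2Defs
import Cfsg.Agent.H4.Chars
import Cfsg.Agent.H82.Irr

set_option autoImplicit false

/-!
# P2-DECOMP (piece of helper26's team project S4705)

A character of degree `(n-1) d` whose multiplicities at `n` distinct irreducible characters of
degree `d` are `m, m-1, m, …, m` is the sum of all of them but the second.
-/

namespace Cfsg.Agent.H36.P2

open Cfsg Cfsg.Agent.H26.P2
open scoped ComplexConjugate

universe u

/-- **P2-DECOMP.** -/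
theorem decomp : StDecomp.{u} := by
  intro G _ _ Ψ hΨ n ξ d hn hd hinj hdeg hΨ1 hmult hmult1
  classical
  obtain ⟨k, rfl⟩ : ∃ k, n = k + 1 := ⟨n - 1, by omega⟩
  have hk : 2 ≤ k := by omega
  simp only [Nat.add_sub_cancel] at hΨ1
  letI := Cfsg.Agent.H4.fintypeIrr G
  obtain ⟨m, hm⟩ := Cfsg.Agent.H4.isCharacter_iff.mp hΨ
  have hinner : ∀ ψ : IrrCharacter G, classInner Ψ ψ.1 = (m ψ : ℂ) := by
    intro ψ
    rw [hm]
    exact Cfsg.Agent.H4.classInner_finsum_irr (fun χ => (m χ : ℂ)) ψ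
  have hsum : Ψ = ∑ ψ : IrrCharacter G, (m ψ : ℂ) • (ψ.1 : G → ℂ) := by
    rw [hm, Cfsg.Agent.H4.finsum_irr_eq_sum]
  have hdegsum : k * d = ∑ ψ : IrrCharacter G, m ψ * charDegree ψ.1 := by
    have h1 : Ψ 1 = ∑ ψ : IrrCharacter G, (m ψ : ℂ) * (charDegree ψ.1 : ℂ) := by
      rw [hsum, Finset.sum_apply]
      refine Finset.sum_congr rfl fun ψ _ => ?_
      rw [Pi.smul_apply, smul_eq_mul, Cfsg.Agent.H82.irr_one_eq_charDegree]
    rw [hΨ1] at h1
    exact_mod_cast h1
  have hm0 : ∀ i, i < k + 1 → i ≠ 1 → m (ξ i) = m (ξ 0) := by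
    intro i hi hi1
    have h := hmult i hi hi1
    rw [hinner, hinner] at h
    exact_mod_cast h
  have hm1 : m (ξ 1) + 1 = m (ξ 0) := by
    have h := hmult1
    rw [hinner, hinner] at h
    exact_mod_cast h
  have h1I : 1 ∈ Finset.range (k + 1) := Finset.mem_range.mpr (by omega)
  have hinjI : ∀ i ∈ Finset.range (k + 1), ∀ j ∈ Finset.range (k + 1), ξ i = ξ j → i = j :=
    fun i hi j hj h => hinj i j (Finset.mem_range.mp hi) (Finset.mem_range.mp hj) h
  have hcardE : ((Finset.range (k + 1)).erase 1).card = k := by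
    rw [Finset.card_erase_of_mem h1I, Finset.card_range, Nat.add_sub_cancel]
  have hS : ∑ ψ ∈ (Finset.range (k + 1)).image ξ, m ψ * charDegree ψ.1 =
      (m (ξ 1) + k * m (ξ 0)) * d := by
    rw [Finset.sum_image hinjI]
    have h1 : ∀ i ∈ Finset.range (k + 1), m (ξ i) * charDegree (ξ i).1 = m (ξ i) * d :=
      fun i hi => by rw [hdeg i (Finset.mem_range.mp hi)]
    rw [Finset.sum_congr rfl h1, ← Finset.sum_mul, ← Finset.add_sum_erase _ _ h1I]
    have h2 : ∑ i ∈ (Finset.range (k + 1)).erase 1, m (ξ i) = k * m (ξ 0) := by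
      rw [Finset.sum_congr rfl (fun i hi => hm0 i (Finset.mem_range.mp (Finset.mem_of_mem_erase hi))
        (Finset.ne_of_mem_erase hi)), Finset.sum_const, smul_eq_mul, hcardE]
    rw [h2]
  have hle : ∑ ψ ∈ (Finset.range (k + 1)).image ξ, m ψ * charDegree ψ.1 ≤
      ∑ ψ : IrrCharacter G, m ψ * charDegree ψ.1 :=
    Finset.sum_le_sum_of_subset (Finset.subset_univ _)
  have hbound : m (ξ 1) + k * m (ξ 0) ≤ k := by
    rw [hS, ← hdegsum] at hle
    exact Nat.le_of_mul_le_mul_right hle hd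
  have hm1z : m (ξ 1) = 0 := by
    by_contra h
    have h2 : 2 ≤ m (ξ 0) := by omega
    have h3 : k * 2 ≤ k * m (ξ 0) := Nat.mul_le_mul_left _ h2
    linarith
  have hm0one : m (ξ 0) = 1 := by omega
  have hout : ∀ ψ : IrrCharacter G, ψ ∉ (Finset.range (k + 1)).image ξ → m ψ = 0 := by
    intro ψ hψ
    have hsd : ∑ x ∈ Finset.univ \ (Finset.range (k + 1)).image ξ, m x * charDegree x.1 +
        ∑ x ∈ (Finset.range (k + 1)).image ξ, m x * charDegree x.1 =
        ∑ x : IrrCharacter G, m x * charDegree x.1 :=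
      Finset.sum_sdiff (Finset.subset_univ _)
    rw [hS, ← hdegsum, hm1z, hm0one, zero_add, mul_one] at hsd
    have hz : ∑ x ∈ Finset.univ \ (Finset.range (k + 1)).image ξ, m x * charDegree x.1 = 0 := by
      linarith
    have h4 := (Finset.sum_eq_zero_iff.mp hz) ψ (Finset.mem_sdiff.mpr ⟨Finset.mem_univ _, hψ⟩)
    rcases Nat.mul_eq_zero.mp h4 with h | h
    · exact h
    · exact absurd h (Cfsg.Agent.H82.charDegree_pos ψ).ne'
  rw [hsum]
  funext g
  rw [Finset.sum_apply]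
  have e1 : ∑ ψ : IrrCharacter G, ((m ψ : ℂ) • (ψ.1 : G → ℂ)) g =
      ∑ ψ ∈ (Finset.range (k + 1)).image ξ, ((m ψ : ℂ) • (ψ.1 : G → ℂ)) g := by
    symm
    apply Finset.sum_subset (Finset.subset_univ _)
    intro ψ _ hψ
    rw [hout ψ hψ]; simp
  rw [e1, Finset.sum_image hinjI, ← Finset.add_sum_erase _ _ h1I, hm1z]
  simp only [Nat.cast_zero, zero_smul, Pi.zero_apply, zero_add]
  refine Finset.sum_congr rfl fun i hi => ?_
  rw [hm0 i (Finset.mem_range.mp (Finset.mem_of_mem_erase hi)) (Finset.ne_of_mem_erase hi),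
    hm0one]
  simp

example : Cfsg.Agent.H26.P2.StDecomp.{u} := decomp

end Cfsg.Agent.H36.P2

#print axioms Cfsg.Agent.H36.P2.decomp
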