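import Mathlib
import Cfsg.Agent.H26.P2Defs

set_option autoImplicit false

/-!
# P2-INJ (piece of helper26's team project S4705)

The values `χ(x^ν)`, `1 ≤ ν ≤ (p-1)/2`, separate the `ν`: for a generator `x` of `P` and
`w = μ(x)` a primitive `p`-th root of unity, `w^ν + w^(-ν) = w^ν' + w^(-ν')` forces
`ν ≡ ± ν' (mod p)`.
-/

namespace Cfsg.Agent.H36.P2

open Cfsg Cfsg.Agent.H26.P2
open scoped ComplexConjugate

universe u

/-- `a + a⁻¹ = b + b⁻¹` for nonzero complex numbers forces `a = b` or `a * b = 1`. -/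
theorem inj_aux (A B : ℂ) (hA : A ≠ 0) (hB : B ≠ 0) (h : A + A⁻¹ = B + B⁻¹) :
    (A - B) * (A * B - 1) = 0 := by
  have h1 : A - B = B⁻¹ - A⁻¹ := by linear_combination h
  have h2 : (B⁻¹ - A⁻¹) * (A * B) = A - B := by field_simp
  have h3 : (A - B) * (A * B) = A - B := by
    calc (A - B) * (A * B) = (B⁻¹ - A⁻¹) * (A * B) := congrArg (· * (A * B)) h1
      _ = A - B := h2
  rw [mul_sub, mul_one, h3, sub_self]

/-- **P2-INJ.** -/
theorem inj : StInj.{u} := by
  intro G _ _ p _ P χ μ s H ν ν' hν hνν' hp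
  have hpp : p.Prime := Fact.out
  obtain ⟨x0, hx0⟩ : ∃ x0 : ↥(P : Subgroup G), μ x0 ≠ 1 := by
    by_contra h
    push Not at h
    exact H.μne (MonoidHom.ext fun x => by simpa using h x)
  refine ⟨x0, ?_⟩
  have hwp : μ x0 ^ p = 1 := by
    rw [← map_pow]
    have h1 : x0 ^ p = 1 := by
      have h2 := pow_card_eq_one' (G := ↥(P : Subgroup G)) (x := x0)
      rwa [H.cardP] at h2
    rw [h1, map_one]
  have hord : orderOf (μ x0) = p := by
    have h1 : orderOf (μ x0) ∣ p := orderOf_dvd_of_pow_eq_one hwp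
    rcases (Nat.dvd_prime hpp).mp h1 with h | h
    · exact absurd (orderOf_eq_one_iff.mp h) hx0
    · exact h
  have hval : ∀ k : ℕ, 0 < k → k < p →
      χ ((x0 : G) ^ k) = -(((μ x0 ^ k : ℂˣ) : ℂ) + (((μ x0 ^ k)⁻¹ : ℂˣ) : ℂ)) := by
    intro k hk0 hkp
    have hne : x0 ^ k ≠ 1 := by
      intro h
      have h1 : μ x0 ^ k = 1 := by rw [← map_pow, h, map_one]
      have hd : p ∣ k := by rw [← hord]; exact orderOf_dvd_of_pow_eq_one h1
      exact absurd (Nat.le_of_dvd hk0 hd) (by omega)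
    have h2 := H.val (x0 ^ k) hne
    rw [map_pow] at h2
    have e : ((x0 ^ k : ↥(P : Subgroup G)) : G) = (x0 : G) ^ k := Subgroup.coe_pow _ _ _
    rw [← e]; exact h2
  intro heq
  rw [hval ν (by omega) (by omega), hval ν' (by omega) (by omega)] at heq
  have h1 : ((μ x0 ^ ν : ℂˣ) : ℂ) + (((μ x0 ^ ν : ℂˣ) : ℂ))⁻¹ =
      ((μ x0 ^ ν' : ℂˣ) : ℂ) + (((μ x0 ^ ν' : ℂˣ) : ℂ))⁻¹ := by
    rw [← Units.val_inv_eq_inv_val, ← Units.val_inv_eq_inv_val]
    exact neg_injective heq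
  have key := inj_aux _ _ (Units.ne_zero (μ x0 ^ ν)) (Units.ne_zero (μ x0 ^ ν')) h1
  rcases mul_eq_zero.mp key with h | h
  · have hab : μ x0 ^ ν = μ x0 ^ ν' := Units.ext (sub_eq_zero.mp h)
    have h3 := (pow_eq_pow_iff_modEq).mp hab
    rw [hord] at h3
    have hd : p ∣ ν' - ν := (Nat.modEq_iff_dvd' hνν'.le).mp h3
    exact absurd (Nat.le_of_dvd (by omega) hd) (by omega)
  · have hab : μ x0 ^ (ν + ν') = 1 := by
      apply Units.ext
      rw [pow_add, Units.val_mul, Units.val_one]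
      exact sub_eq_zero.mp h
    have hd : p ∣ ν + ν' := by rw [← hord]; exact orderOf_dvd_of_pow_eq_one hab
    exact absurd (Nat.le_of_dvd (by omega) hd) (by omega)

example : Cfsg.Agent.H26.P2.StInj.{u} := inj

end Cfsg.Agent.H36.P2

#print axioms Cfsg.Agent.H36.P2.inj
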