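import Cfsg.Agent.H48.SpUDefs

/-!
# S2316-ADAPT (helper36, for helper48's team project S2316)

Adapted symplectic frame for an orthogonal `ker T ⊕ range T` decomposition.
-/

set_option autoImplicit false

open Matrix

namespace Cfsg.Agent.H36.SpU

open Cfsg.Agent.H48.SpU

universe u

section aux

variable {F : Type*} [Field F] {ι : Type*} [Fintype ι] [DecidableEq ι]

omit [DecidableEq ι] in
/-- An alternating form is skew-symmetric. -/
theorem alt_skew (M : Matrix ι ι F) (h : ∀ v : ι → F, v ⬝ᵥ M *ᵥ v = 0) (x y : ι → F) :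
    x ⬝ᵥ M *ᵥ y = - (y ⬝ᵥ M *ᵥ x) := by
  have h1 := h (x + y)
  rw [Matrix.mulVec_add, add_dotProduct, dotProduct_add, dotProduct_add, h x, h y] at h1
  linear_combination h1

/-- Left nondegeneracy of an invertible matrix. -/
theorem nondeg_left (M : Matrix ι ι F) (hM : M.det ≠ 0) (v : ι → F)
    (h : ∀ y : ι → F, v ⬝ᵥ M *ᵥ y = 0) : v = 0 := by
  have h1 : v ᵥ* M = 0 := by
    funext j
    have h2 := h (Pi.single j 1)
    rw [Matrix.dotProduct_mulVec, dotProduct_single, mul_one] at h2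
    simpa using h2
  have hu : IsUnit M := (Matrix.isUnit_iff_isUnit_det M).2 (isUnit_iff_ne_zero.2 hM)
  have hinj := (Matrix.vecMul_injective_iff_isUnit (A := M)).2 hu
  apply hinj
  simp only [h1, Matrix.zero_vecMul]

/-- The block diagonal of two alternating matrices is alternating. -/
theorem alt_blocks {ι₁ ι₂ : Type*} [Fintype ι₁] [DecidableEq ι₁] [Fintype ι₂] [DecidableEq ι₂]
    (M₁ : Matrix ι₁ ι₁ F) (M₂ : Matrix ι₂ ι₂ F) (h₁ : ∀ v : ι₁ → F, v ⬝ᵥ M₁ *ᵥ v = 0)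
    (h₂ : ∀ v : ι₂ → F, v ⬝ᵥ M₂ *ᵥ v = 0) (v : ι₁ ⊕ ι₂ → F) :
    v ⬝ᵥ (fromBlocks M₁ 0 0 M₂) *ᵥ v = 0 := by
  rw [Matrix.fromBlocks_mulVec]
  simp only [Matrix.zero_mulVec, add_zero, zero_add]
  have h3 := h₁ (v ∘ Sum.inl)
  have h4 := h₂ (v ∘ Sum.inr)
  simp only [dotProduct, Fintype.sum_sum_type, Sum.elim_inl, Sum.elim_inr, Function.comp_apply]
    at h3 h4 ⊢
  rw [h3, h4, add_zero]

omit [DecidableEq ι] in
/-- Entries of a Gram-type product. -/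
theorem gram_entry {κ₁ κ₂ : Type*} [Fintype κ₁] [Fintype κ₂] (M : Matrix ι ι F)
    (A : Matrix ι κ₁ F) (B : Matrix ι κ₂ F) (i : κ₁) (j : κ₂) :
    (Aᵀ * M * B) i j = (fun k => A k i) ⬝ᵥ M *ᵥ (fun k => B k j) := by
  rw [Matrix.mul_assoc, Matrix.mul_apply]
  rfl

end aux

theorem adapt (hG : GramBStmt.{u}) : AdaptStmt.{u} := by
  intro F _ _ ι₁ ι₂ _ _ _ _ M₁ M₂ T hM₁ hM₂ hperp hrank hrank2
  classical
  set M : Matrix (ι₁ ⊕ ι₂) (ι₁ ⊕ ι₂) F := fromBlocks M₁ 0 0 M₂ with hMdef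
  have hMalt : ∀ v : ι₁ ⊕ ι₂ → F, v ⬝ᵥ M *ᵥ v = 0 := alt_blocks M₁ M₂ hM₁.1 hM₂.1
  have hMdet : M.det ≠ 0 := by
    rw [hMdef, Matrix.det_fromBlocks_zero₂₁]; exact mul_ne_zero hM₁.2 hM₂.2
  have hskew := alt_skew M hMalt
  -- the linear map
  set f : (ι₁ ⊕ ι₂ → F) →ₗ[F] (ι₁ ⊕ ι₂ → F) := T.mulVecLin with hf
  set W₀ : Submodule F (ι₁ ⊕ ι₂ → F) := LinearMap.ker f with hW₀
  set W₁ : Submodule F (ι₁ ⊕ ι₂ → F) := LinearMap.range f with hW₁
  have hdim1 : Module.finrank F W₁ = Fintype.card ι₂ := by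
    rw [← hrank]; rfl
  have hdimV : Module.finrank F (ι₁ ⊕ ι₂ → F) = Fintype.card ι₁ + Fintype.card ι₂ := by
    rw [Module.finrank_fintype_fun_eq_card, Fintype.card_sum]
  have hdim0 : Module.finrank F W₀ = Fintype.card ι₁ := by
    have h1 := LinearMap.finrank_range_add_finrank_ker f
    rw [hdimV] at h1
    have h2 : Module.finrank F (LinearMap.range f) = Fintype.card ι₂ := hdim1
    have h3 : Module.finrank F W₀ = Module.finrank F (LinearMap.ker f) := rfl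
    omega
  -- `W₀ ⊓ W₁ = ⊥`
  have hinter : ∀ w ∈ W₁, f w = 0 → w = 0 := by
    have h1 := LinearMap.finrank_range_add_finrank_ker (f.domRestrict W₁)
    have h2 : LinearMap.range (f.domRestrict W₁) = LinearMap.range (f ∘ₗ f) := by
      rw [LinearMap.range_domRestrict, LinearMap.range_comp]
    have h3 : Module.finrank F (LinearMap.range (f ∘ₗ f)) = Fintype.card ι₂ := by
      rw [← hrank, ← hrank2, hf, ← Matrix.mulVecLin_mul]
      rfl
    rw [h2, h3, hdim1] at h1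
    have h4 : Module.finrank F (LinearMap.ker (f.domRestrict W₁)) = 0 := by omega
    have h5 : LinearMap.ker (f.domRestrict W₁) = ⊥ := Submodule.finrank_eq_zero.mp h4
    intro w hw hfw
    have h6 : (⟨w, hw⟩ : W₁) ∈ LinearMap.ker (f.domRestrict W₁) := by
      rw [LinearMap.mem_ker]; exact hfw
    rw [h5, Submodule.mem_bot] at h6
    exact congrArg Subtype.val h6
  have hperp' : ∀ w₁ ∈ W₁, ∀ w₀ ∈ W₀, w₁ ⬝ᵥ M *ᵥ w₀ = 0 := by
    rintro w₁ ⟨x, rfl⟩ w₀ hw₀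
    exact hperp x w₀ hw₀
  have hsup : ∀ v : ι₁ ⊕ ι₂ → F, ∃ w₀ ∈ W₀, ∃ w₁ ∈ W₁, v = w₀ + w₁ := by
    have hdisj : W₀ ⊓ W₁ = ⊥ := by
      rw [eq_bot_iff]
      intro w hw
      rw [Submodule.mem_inf] at hw
      rw [Submodule.mem_bot]
      exact hinter w hw.2 hw.1
    have htop : W₀ ⊔ W₁ = ⊤ := by
      apply Submodule.eq_top_of_finrank_eq
      have h1 := Submodule.finrank_sup_add_finrank_inf_eq W₀ W₁
      rw [hdisj, finrank_bot, hdim0, hdim1] at h1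
      rw [hdimV]; omega
    intro v
    have hv : v ∈ W₀ ⊔ W₁ := by rw [htop]; trivial
    obtain ⟨w₀, h0, w₁, h1, rfl⟩ := Submodule.mem_sup.1 hv
    exact ⟨w₀, h0, w₁, h1, rfl⟩
  have hnd0 : ∀ w ∈ W₀, (∀ w' ∈ W₀, w ⬝ᵥ M *ᵥ w' = 0) → w = 0 := by
    intro w hw hall
    apply nondeg_left M hMdet
    intro y
    obtain ⟨w₀, h0, w₁, h1, rfl⟩ := hsup y
    rw [Matrix.mulVec_add, dotProduct_add, hall w₀ h0, hskew w w₁, hperp' w₁ h1 w hw]
    simp
  have hnd1 : ∀ w ∈ W₁, (∀ w' ∈ W₁, w ⬝ᵥ M *ᵥ w' = 0) → w = 0 := by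
    intro w hw hall
    apply nondeg_left M hMdet
    intro y
    obtain ⟨w₀, h0, w₁, h1, rfl⟩ := hsup y
    rw [Matrix.mulVec_add, dotProduct_add, hall w₁ h1, hperp' w hw w₀ h0]
    simp
  -- Gram bases of `W₀` and `W₁`
  obtain ⟨C₁, hC₁W, hC₁⟩ := hG F (ι₁ ⊕ ι₂) ι₁ M M₁ W₀ hMalt hM₁ hdim0 hnd0
  obtain ⟨C₂, hC₂W, hC₂⟩ := hG F (ι₁ ⊕ ι₂) ι₂ M M₂ W₁ hMalt hM₂ hdim1 hnd1
  have hcross12 : C₁ᵀ * M * C₂ = 0 := by
    ext i j
    rw [gram_entry, hskew, hperp' _ (hC₂W j) _ (hC₁W i)]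
    simp
  have hcross21 : C₂ᵀ * M * C₁ = 0 := by
    ext i j
    rw [gram_entry, hperp' _ (hC₂W i) _ (hC₁W j)]
    rfl
  refine ⟨Matrix.fromCols C₁ C₂, ?_, ?_⟩
  · rw [Matrix.transpose_fromCols, Matrix.fromRows_mul, Matrix.fromRows_mul_fromCols, hC₁, hC₂,
      hcross12, hcross21]
  · have hC₂inj : Function.Injective C₂.mulVecLin := by
      rw [← LinearMap.ker_eq_bot, LinearMap.ker_eq_bot']
      intro v hv
      have h1 : M₂ *ᵥ v = 0 := by
        rw [← hC₂, ← Matrix.mulVec_mulVec]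
        have h2 : C₂ *ᵥ v = 0 := hv
        rw [h2, Matrix.mulVec_zero]
      have hu : IsUnit M₂ := (Matrix.isUnit_iff_isUnit_det M₂).2 (isUnit_iff_ne_zero.2 hM₂.2)
      exact (Matrix.mulVec_injective_iff_isUnit.2 hu) (by rw [h1, Matrix.mulVec_zero])
    have hrange : LinearMap.range C₂.mulVecLin = W₁ := by
      apply Submodule.eq_of_le_of_finrank_eq
      · rw [Matrix.range_mulVecLin, Submodule.span_le]
        rintro _ ⟨j, rfl⟩
        exact hC₂W j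
      · rw [LinearMap.finrank_range_of_inj hC₂inj, hdim1, Module.finrank_fintype_fun_eq_card]
    have hex : ∀ j : ι₂, ∃ x : ι₂ → F, C₂ *ᵥ x = T *ᵥ (fun i => C₂ i j) := by
      intro j
      have h1 : T *ᵥ (fun i => C₂ i j) ∈ W₁ := ⟨_, rfl⟩
      rw [← hrange] at h1
      obtain ⟨x, hx⟩ := h1
      exact ⟨x, hx⟩
    choose xf hxf using hex
    have hTC : T * C₂ = C₂ * Matrix.of (fun i j => xf j i) := by
      ext i j
      exact (congrFun (hxf j) i).symm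
    have hTC₁ : T * C₁ = 0 := by
      ext i j
      have h1 : T *ᵥ (fun k => C₁ k j) = 0 := hC₁W j
      exact congrFun h1 i
    refine ⟨Matrix.of (fun i j => xf j i), ?_, ?_⟩
    · rw [← Matrix.mulVec_injective_iff_isUnit]
      intro v v' hvv'
      have h0 : Matrix.of (fun i j => xf j i) *ᵥ (v - v') = 0 := by
        rw [Matrix.mulVec_sub, hvv', sub_self]
      have h1 : f (C₂ *ᵥ (v - v')) = 0 := by
        show T *ᵥ (C₂ *ᵥ (v - v')) = 0
        rw [Matrix.mulVec_mulVec, hTC, ← Matrix.mulVec_mulVec, h0, Matrix.mulVec_zero]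
      have h2 : C₂ *ᵥ (v - v') ∈ W₁ := by rw [← hrange]; exact ⟨_, rfl⟩
      have h3 := hinter _ h2 h1
      have h4 : v - v' = 0 := hC₂inj (by
        show C₂ *ᵥ (v - v') = C₂ *ᵥ 0
        rw [h3, Matrix.mulVec_zero])
      exact sub_eq_zero.mp h4
    · rw [Matrix.mul_fromCols, Matrix.fromCols_mul_fromBlocks, hTC₁, hTC]
      simp

end Cfsg.Agent.H36.SpU

section check
open Cfsg.Agent.H48.SpU
universe v
example (hG : GramBStmt.{v}) : AdaptStmt.{v} := Cfsg.Agent.H36.SpU.adapt hG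
end check

#print axioms Cfsg.Agent.H36.SpU.adapt
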