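import Mathlib
import Cfsg.Agent.H78.StODefs

/-!
# S2548-ELT (team piece for helper78)

Siegel elements and flips in the isometry group of the hyperbolic quadratic form.
-/

set_option autoImplicit false

namespace Cfsg.Agent.H36.StO

open Matrix Cfsg.Agent.H78.StO

variable {F : Type*} [Field F]

/-- The double sum of an alternating form vanishes (no division by `2`). -/
theorem alt_sum_zero {n : ℕ} (S : Matrix (Fin n) (Fin n) F) (hS : IsAlt S) (y : Fin n → F) :
    ∑ i, ∑ j, S i j * y j * y i = 0 := by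
  classical
  rw [← Finset.sum_product' (f := fun i j => S i j * y j * y i)]
  refine Finset.sum_involution (fun p _ => (p.2, p.1)) ?_ ?_ ?_ ?_
  · intro p _
    simp only
    rw [hS.1 p.1 p.2]
    ring
  · intro p _ hne heq
    apply hne
    have h1 : p.2 = p.1 := congrArg Prod.fst heq
    rw [h1, hS.2]
    ring
  · intro p _
    exact Finset.mem_product.mpr ⟨Finset.mem_univ _, Finset.mem_univ _⟩
  · intro p _
    rfl

/-- Build an isometry from a matrix, an inverse and the isometry property. -/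
theorem exists_of_matrix (m : ℕ)
    (M N : Matrix (Fin (m + 1) ⊕ Fin (m + 1)) (Fin (m + 1) ⊕ Fin (m + 1)) F)
    (h1 : M * N = 1) (h2 : N * M = 1)
    (hQ : ∀ v, Cfsg.quadFormPlus (m + 1) F (M *ᵥ v) = Cfsg.quadFormPlus (m + 1) F v) :
    ∃ g : OG m F, mat g = M :=
  ⟨⟨⟨M, N, h1, h2⟩, fun u _ => hQ u⟩, rfl⟩

theorem exists_siegel_up (m : ℕ) (S : Matrix (Fin (m + 1)) (Fin (m + 1)) F) (hS : IsAlt S) :
    ∃ g : OG m F, mat g = fromBlocks 1 S 0 1 := by
  refine exists_of_matrix m (fromBlocks 1 S 0 1) (fromBlocks 1 (-S) 0 1) ?_ ?_ ?_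
  · rw [fromBlocks_multiply]
    simp [← fromBlocks_one]
  · rw [fromBlocks_multiply]
    simp [← fromBlocks_one]
  · intro v
    have hl : ∀ i, ((fromBlocks 1 S 0 1 : Matrix (Fin (m + 1) ⊕ Fin (m + 1)) (Fin (m + 1) ⊕ Fin (m + 1)) F) *ᵥ v) (Sum.inl i) =
        v (Sum.inl i) + ∑ j, S i j * v (Sum.inr j) := by
      intro i
      simp [mulVec, dotProduct, Fintype.sum_sum_type, fromBlocks_apply₁₁, fromBlocks_apply₁₂,
        Matrix.one_apply]
    have hr : ∀ i, ((fromBlocks 1 S 0 1 : Matrix (Fin (m + 1) ⊕ Fin (m + 1)) (Fin (m + 1) ⊕ Fin (m + 1)) F) *ᵥ v) (Sum.inr i) = v (Sum.inr i) := by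
      intro i
      simp [mulVec, dotProduct, Fintype.sum_sum_type, fromBlocks_apply₂₁, fromBlocks_apply₂₂,
        Matrix.one_apply]
    unfold Cfsg.quadFormPlus
    simp only [hl, hr]
    have h0 := alt_sum_zero S hS (fun j => v (Sum.inr j))
    have h1 : ∑ i, (v (Sum.inl i) + ∑ j, S i j * v (Sum.inr j)) * v (Sum.inr i) =
        ∑ i, v (Sum.inl i) * v (Sum.inr i) + ∑ i, ∑ j, S i j * v (Sum.inr j) * v (Sum.inr i) := by
      rw [← Finset.sum_add_distrib]
      refine Finset.sum_congr rfl fun i _ => ?_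
      rw [add_mul, Finset.sum_mul]
    rw [h1, h0, add_zero]

theorem exists_siegel_low (m : ℕ) (S : Matrix (Fin (m + 1)) (Fin (m + 1)) F) (hS : IsAlt S) :
    ∃ g : OG m F, mat g = fromBlocks 1 0 S 1 := by
  refine exists_of_matrix m (fromBlocks 1 0 S 1) (fromBlocks 1 0 (-S) 1) ?_ ?_ ?_
  · rw [fromBlocks_multiply]
    simp [← fromBlocks_one]
  · rw [fromBlocks_multiply]
    simp [← fromBlocks_one]
  · intro v
    have hl : ∀ i, ((fromBlocks 1 0 S 1 : Matrix (Fin (m + 1) ⊕ Fin (m + 1)) (Fin (m + 1) ⊕ Fin (m + 1)) F) *ᵥ v) (Sum.inl i) = v (Sum.inl i) := by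
      intro i
      simp [mulVec, dotProduct, Fintype.sum_sum_type, fromBlocks_apply₁₁, fromBlocks_apply₁₂,
        Matrix.one_apply]
    have hr : ∀ i, ((fromBlocks 1 0 S 1 : Matrix (Fin (m + 1) ⊕ Fin (m + 1)) (Fin (m + 1) ⊕ Fin (m + 1)) F) *ᵥ v) (Sum.inr i) =
        v (Sum.inr i) + ∑ j, S i j * v (Sum.inl j) := by
      intro i
      simp [mulVec, dotProduct, Fintype.sum_sum_type, fromBlocks_apply₂₁, fromBlocks_apply₂₂,
        Matrix.one_apply, add_comm]
    unfold Cfsg.quadFormPlus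
    simp only [hl, hr]
    have h0 := alt_sum_zero S hS (fun j => v (Sum.inl j))
    have h1 : ∑ i, v (Sum.inl i) * (v (Sum.inr i) + ∑ j, S i j * v (Sum.inl j)) =
        ∑ i, v (Sum.inl i) * v (Sum.inr i) + ∑ i, ∑ j, S i j * v (Sum.inl j) * v (Sum.inl i) := by
      rw [← Finset.sum_add_distrib]
      refine Finset.sum_congr rfl fun i _ => ?_
      rw [mul_add, Finset.mul_sum]
      congr 1
      refine Finset.sum_congr rfl fun j _ => ?_
      ring
    rw [h1, h0, add_zero]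

theorem exists_flip (m : ℕ) (i : Fin (m + 1)) :
    ∃ g : OG m F, ∀ (v : Fin (m + 1) ⊕ Fin (m + 1) → F) (c : Fin (m + 1) ⊕ Fin (m + 1)),
      (mat g *ᵥ v) c = v (Equiv.swap (Sum.inl i) (Sum.inr i) c) := by
  classical
  obtain ⟨σ, hσ⟩ : ∃ σ : Equiv.Perm (Fin (m + 1) ⊕ Fin (m + 1)),
      σ = Equiv.swap (Sum.inl i) (Sum.inr i) := ⟨_, rfl⟩
  have hσσ : ∀ c, σ (σ c) = c := by
    intro c
    rw [hσ, Equiv.swap_apply_self]
  obtain ⟨M, hM⟩ : ∃ M : Matrix (Fin (m + 1) ⊕ Fin (m + 1)) (Fin (m + 1) ⊕ Fin (m + 1)) F,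
      M = Matrix.of fun c d => if d = σ c then (1 : F) else 0 := ⟨_, rfl⟩
  have hmv : ∀ (v : Fin (m + 1) ⊕ Fin (m + 1) → F) c, (M *ᵥ v) c = v (σ c) := by
    intro v c
    rw [hM]
    simp [mulVec, dotProduct]
  have hMM : M * M = 1 := by
    ext c d
    rw [Matrix.mul_apply]
    have h1 : ∀ e, M c e * M e d = if e = σ c then M e d else 0 := by
      intro e
      rw [hM]
      simp only [Matrix.of_apply]
      split_ifs <;> simp
    simp only [h1, Finset.sum_ite_eq', Finset.mem_univ, if_true]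
    rw [hM]
    simp only [Matrix.of_apply, hσσ, Matrix.one_apply]
    by_cases h : c = d
    · simp [h]
    · have h' : ¬ d = c := fun h'' => h h''.symm
      simp [h, h']
  obtain ⟨g, hg⟩ := exists_of_matrix m M M hMM hMM (by
    intro v
    unfold Cfsg.quadFormPlus
    simp only [hmv]
    refine Finset.sum_congr rfl fun k _ => ?_
    by_cases hk : k = i
    · subst hk
      rw [hσ, Equiv.swap_apply_left, Equiv.swap_apply_right, mul_comm]
    · have h1 : σ (Sum.inl k) = Sum.inl k := by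
        rw [hσ]
        exact Equiv.swap_apply_of_ne_of_ne (by simpa using hk) (by simp)
      have h2 : σ (Sum.inr k) = Sum.inr k := by
        rw [hσ]
        exact Equiv.swap_apply_of_ne_of_ne (by simp) (by simpa using hk)
      rw [h1, h2])
  refine ⟨g, fun v c => ?_⟩
  rw [hg, hmv, hσ]

end Cfsg.Agent.H36.StO
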