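import Mathlib
import Cfsg.Agent.H78.StODefs

/-!
# S2548-REL (team piece for helper78)

Relations between the entries of a unitriangular isometry of the hyperbolic quadratic form.
-/

set_option autoImplicit false

namespace Cfsg.Agent.H36.StO

open Matrix Cfsg.Agent.H78.StO

variable {F : Type*} [Field F]

/-- `Q (g f_l) = 0` written out: `∑ i, B i l * D i l = 0`. -/
theorem quad_col_inr (m : ℕ) (g : OG m F) (l : Fin (m + 1)) :
    ∑ i, mat g (Sum.inl i) (Sum.inr l) * mat g (Sum.inr i) (Sum.inr l) = 0 := by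
  classical
  have h := quad_mat g (Pi.single (Sum.inr l) 1)
  unfold Cfsg.quadFormPlus at h
  simp only [Matrix.mulVec_single_one] at h
  rw [show (∑ i : Fin (m + 1), (Pi.single (Sum.inr l) (1 : F) :
      Fin (m + 1) ⊕ Fin (m + 1) → F) (Sum.inl i) *
      (Pi.single (Sum.inr l) (1 : F) : Fin (m + 1) ⊕ Fin (m + 1) → F) (Sum.inr i)) = 0 from
    Finset.sum_eq_zero fun i _ => by simp] at h
  exact h

theorem oplus_rel (m : ℕ) (g : OG m F) (hg : IsUniO g) :
    (∀ k : Fin m, mat g (Sum.inr k.succ) (Sum.inr k.castSucc) =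
      - mat g (Sum.inl k.castSucc) (Sum.inl k.succ)) ∧
    mat g (Sum.inl (Fin.last m)) (Sum.inr (Fin.last m)) = 0 := by
  classical
  obtain ⟨hC, hA, hA1, hD, hD1⟩ := hg
  constructor
  · intro k
    have h := quad_mat g (Pi.single (Sum.inl k.succ) 1 + Pi.single (Sum.inr k.castSucc) 1)
    unfold Cfsg.quadFormPlus at h
    simp only [Matrix.mulVec_add, Matrix.mulVec_single_one, Pi.add_apply] at h
    have hne : k.succ ≠ k.castSucc := by
      intro h'
      have := congrArg Fin.val h'
      simp at this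
    have hrhs : (∑ i : Fin (m + 1),
        ((Pi.single (Sum.inl k.succ) (1 : F) : Fin (m + 1) ⊕ Fin (m + 1) → F) (Sum.inl i) +
          (Pi.single (Sum.inr k.castSucc) (1 : F) : Fin (m + 1) ⊕ Fin (m + 1) → F) (Sum.inl i)) *
        ((Pi.single (Sum.inl k.succ) (1 : F) : Fin (m + 1) ⊕ Fin (m + 1) → F) (Sum.inr i) +
          (Pi.single (Sum.inr k.castSucc) (1 : F) : Fin (m + 1) ⊕ Fin (m + 1) → F) (Sum.inr i)))
        = 0 := by
      refine Finset.sum_eq_zero fun i _ => ?_
      by_cases h1 : i = k.succ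
      · subst h1
        simp [hne]
      · simp [Pi.single_apply, h1]
    rw [hrhs] at h
    have hcol := quad_col_inr m g k.castSucc
    have hsplit : ∑ i, (mat g (Sum.inl i) (Sum.inl k.succ) + mat g (Sum.inl i) (Sum.inr k.castSucc)) *
        (mat g (Sum.inr i) (Sum.inl k.succ) + mat g (Sum.inr i) (Sum.inr k.castSucc)) =
        ∑ i, mat g (Sum.inl i) (Sum.inl k.succ) * mat g (Sum.inr i) (Sum.inr k.castSucc) +
        ∑ i, mat g (Sum.inl i) (Sum.inr k.castSucc) * mat g (Sum.inr i) (Sum.inr k.castSucc) := by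
      rw [← Finset.sum_add_distrib]
      refine Finset.sum_congr rfl fun i _ => ?_
      rw [hC i k.succ]
      ring
    have h' : ∑ i, (mat g (Sum.inl i) (Sum.inl k.succ) + mat g (Sum.inl i) (Sum.inr k.castSucc)) *
        (mat g (Sum.inr i) (Sum.inl k.succ) + mat g (Sum.inr i) (Sum.inr k.castSucc)) = 0 := h
    rw [hsplit, hcol, add_zero] at h'
    have hsum : ∑ i, mat g (Sum.inl i) (Sum.inl k.succ) * mat g (Sum.inr i) (Sum.inr k.castSucc) =
        mat g (Sum.inl k.castSucc) (Sum.inl k.succ) * mat g (Sum.inr k.castSucc) (Sum.inr k.castSucc)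
        + mat g (Sum.inl k.succ) (Sum.inl k.succ) * mat g (Sum.inr k.succ) (Sum.inr k.castSucc) := by
      refine Finset.sum_eq_add k.castSucc k.succ hne.symm ?_ (fun h0 => absurd (Finset.mem_univ _) h0)
        (fun h0 => absurd (Finset.mem_univ _) h0)
      intro c _ hc
      have hc1 : c.val ≠ k.val := fun h0 => hc.1 (Fin.ext (by simpa using h0))
      have hc2 : c.val ≠ k.val + 1 := fun h0 => hc.2 (Fin.ext (by simpa using h0))
      rcases Nat.lt_or_ge c.val k.val with hlt | hge
      · have : c < k.castSucc := by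
          rw [Fin.lt_def]; simpa using hlt
        rw [hD c k.castSucc this, mul_zero]
      · have : k.succ < c := by
          rw [Fin.lt_def]
          simp only [Fin.val_succ]
          omega
        rw [hA c k.succ this, zero_mul]
    rw [hsum, hD1, hA1, mul_one, one_mul] at h'
    exact eq_neg_of_add_eq_zero_right h'
  · have hcol := quad_col_inr m g (Fin.last m)
    have hsum : ∑ i, mat g (Sum.inl i) (Sum.inr (Fin.last m)) *
        mat g (Sum.inr i) (Sum.inr (Fin.last m)) =
        mat g (Sum.inl (Fin.last m)) (Sum.inr (Fin.last m)) *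
          mat g (Sum.inr (Fin.last m)) (Sum.inr (Fin.last m)) := by
      refine Finset.sum_eq_single (Fin.last m) ?_ (fun h0 => absurd (Finset.mem_univ _) h0)
      intro c _ hc
      have : c < Fin.last m := Fin.lt_last_iff_ne_last.mpr hc
      rw [hD c (Fin.last m) this, mul_zero]
    rw [hsum, hD1, mul_one] at hcol
    exact hcol

end Cfsg.Agent.H36.StO
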