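import Cfsg.Agent.H78.StbE6Defs

set_option autoImplicit false

/-!
# S2123-E6CARDH (piece of helper78's team project S2123)

`gcd(3, q - 1) · |H| = (q - 1)^6` for the diagonal subgroup `H` of `E₆(q)`.
The two generic lemmas are copies of `card_diagonal_formula`, `gcd_mul_div` of `H23/OrdH.lean`
(kept here so that the closure stays `E₆`-only).
-/

namespace Cfsg.Agent.H36.StbG

open Cfsg.Lie Cfsg.Agent.H23 Cfsg.Agent.H23.Stb Cfsg.Agent.H78.StbG

universe u

/-- `|H|` from a Smith normal form of the Cartan matrix (copy of `H23.card_diagonal_formula`). -/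
theorem cardH_formula {D : ChevalleyDatum} {F : Type*} [Field F] {η : ℕ → ℕ → ℤ} {ctbl : List ℕ}
    [Finite F] (hP : PackB D F (zR D ctbl) η) (hH : TabH D ctbl) {P Q Pi Qi : List (List ℤ)}
    {d : List ℕ} (hS : SmithOK D ctbl P Q Pi Qi d) :
    Nat.card ↥(D.diagonalSubgroup F) =
      (d.map (fun k => (Nat.card F - 1) / (Nat.card F - 1).gcd k)).prod := by
  rw [card_diagonal hP hH, card_range_powHom _ _ _ _ _ _ hS.hA hS.hP hS.hQ, Nat.card_units]
  exact prod_fin_getD d hS.len (fun k => (Nat.card F - 1) / (Nat.card F - 1).gcd k)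

theorem cardH_gcd_mul_div (a x : ℕ) : Nat.gcd a x * (x / x.gcd a) = x := by
  rw [Nat.gcd_comm]; exact Nat.mul_div_cancel' (Nat.gcd_dvd_left _ _)

/-- **S2123-E6CARDH.** -/
theorem e6CardH : StE6CardH.{u} := by
  intro F _ _
  have hP : PackB chevE6 F (zR chevE6 ctblE6) _ := ⟨chk_E6.sem F, nconj_E6.semN chk_E6.tblOK F,
    comm_E6.semC chk_E6.tblOK F, tab_E6, tabC_E6, etaNeg_E6, tab2_E6⟩
  have h := cardH_formula hP tabH_E6 smith_E6
  rw [Nat.card_eq_fintype_card (α := F)] at h
  have hr : chevE6.rank = 6 := rfl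
  rw [h, hr]
  simp only [List.map_cons, List.map_nil, List.prod_cons, List.prod_nil, Nat.gcd_one_right,
    Nat.div_one]
  refine Eq.trans (b := (Fintype.card F - 1) ^ 5 * (Nat.gcd 3 (Fintype.card F - 1) *
    ((Fintype.card F - 1) / (Fintype.card F - 1).gcd 3))) (by ring) ?_
  rw [cardH_gcd_mul_div]
  ring

example : StE6CardH.{u} := e6CardH

end Cfsg.Agent.H36.StbG

#print axioms Cfsg.Agent.H36.StbG.e6CardH
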