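import Cfsg.Agent.H78.StbE6Defs

set_option autoImplicit false

/-!
# S2123-E6SYL (piece of helper78's team project S2123)

`U` is a Sylow `p`-subgroup of `E₆(q)` in characteristic `p`.
The generic lemmas are copies of `exists_sylow_of_card_mul`, `not_dvd_prod_pow_sub_one`
(`H23/SylowU.lean`) and `card_posUnipotent` (`H23/CardU.lean`), kept here so that the closure stays
`E₆`-only.
-/

namespace Cfsg.Agent.H36.StbG

open Cfsg.Lie Cfsg.Agent.H23 Cfsg.Agent.H23.Stb Cfsg.Agent.H78.StbG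

universe u

/-- A subgroup of order `p ^ a` of a group whose order, times some `c`, is `p ^ a * m` with
`p ∤ m`, is a Sylow `p`-subgroup (copy of `H23.exists_sylow_of_card_mul`). -/
theorem syl_of_card_mul {G : Type*} [Group G] [Finite G] (p : ℕ) [hp : Fact p.Prime]
    (U : Subgroup G) (a c m : ℕ) (hU : Nat.card U = p ^ a) (hG : c * Nat.card G = p ^ a * m)
    (hm : ¬ p ∣ m) : ∃ P : Sylow p G, (P : Subgroup G) = U := by
  have hG0 : Nat.card G ≠ 0 := Nat.card_pos.ne'
  have h1 : a ≤ (Nat.card G).factorization p := by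
    rw [← Nat.Prime.pow_dvd_iff_le_factorization hp.out hG0, ← hU]
    exact Subgroup.card_subgroup_dvd_card U
  have h2 : (Nat.card G).factorization p ≤ a := by
    have h3 : p ^ (Nat.card G).factorization p ∣ p ^ a * m := by
      rw [← hG]
      exact Dvd.dvd.mul_left (Nat.ordProj_dvd _ _) _
    have h4 : Nat.Coprime (p ^ (Nat.card G).factorization p) m :=
      Nat.Coprime.pow_left _ ((Nat.Prime.coprime_iff_not_dvd hp.out).mpr hm)
    have h5 := h4.dvd_of_dvd_mul_right h3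
    exact (Nat.pow_dvd_pow_iff_le_right hp.out.one_lt).mp h5
  have h6 : Nat.card U = p ^ (Nat.card G).factorization p := by rw [hU, le_antisymm h1 h2]
  exact ⟨Sylow.ofCard U h6, Sylow.coe_ofCard U h6⟩

theorem syl_not_dvd_prod (p q : ℕ) (hp : p.Prime) (hq : p ∣ q) (hq1 : 1 ≤ q) (l : List ℕ)
    (hl : ∀ d ∈ l, d ≠ 0) : ¬ p ∣ (l.map fun d => q ^ d - 1).prod := by
  induction l with
  | nil => simpa using hp.one_lt.ne'
  | cons d l ih =>
    rw [List.map_cons, List.prod_cons, Nat.Prime.dvd_mul hp]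
    rintro (h | h)
    · have hd : d ≠ 0 := hl d (List.mem_cons_self ..)
      have h1 : p ∣ q ^ d := Dvd.dvd.trans hq (dvd_pow_self q hd)
      have h2 : 1 ≤ q ^ d := Nat.one_le_pow _ _ hq1
      have h3 : p ∣ q ^ d - (q ^ d - 1) := Nat.dvd_sub h1 h
      have h4 : q ^ d - (q ^ d - 1) = 1 := by omega
      rw [h4] at h3
      exact hp.one_lt.ne' (Nat.dvd_one.mp h3)
    · exact ih (fun d hd => hl d (List.mem_cons_of_mem _ hd)) h

/-- `|U| = q^N` (copy of `H23.card_posUnipotent`). -/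
theorem syl_card_posUnipotent {D : ChevalleyDatum} {F : Type*} [Field F] {z η : ℕ → ℕ → ℤ}
    [Finite F] (hP : PackB D F z η) (hV : SemV D F) (w : List ℕ) (hW : TabW D w) :
    Nat.card ↥(D.posUnipotent F) = Nat.card F ^ numPos D := by
  have hS := hP.sem
  have hT := hP.tab
  have hnorm := diagonal_le_normalizer_rootGen hS D.IsPosRoot (fun _ hr => hr.1)
  set n₀ := nWU hS w with hn₀
  have hn₀N : n₀ ∈ D.monomialSubgroup F := nWU_mem hS hT w hW.lt
  have hUB : D.posUnipotent F ≤ D.borelSubgroup F := le_sup_left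
  let f : ↥(D.posUnipotent F) × ↥(D.borelSubgroup F) → ↥(dcB D F n₀) :=
    fun p => ⟨(p.1 : GL D.Idx F) * n₀ * (p.2 : GL D.Idx F), ⟨p.1, hUB p.1.2, p.2, p.2.2, rfl⟩⟩
  have hinj : Function.Injective f := by
    rintro ⟨⟨u, hu⟩, ⟨b, hb⟩⟩ ⟨⟨u', hu'⟩, ⟨b', hb'⟩⟩ e
    have e1 : u * n₀ * b = u' * n₀ * b' := congrArg Subtype.val e
    have e2 : u'⁻¹ * u = n₀ * (b' * b⁻¹) * n₀⁻¹ := by
      have : u = u' * n₀ * b' * b⁻¹ * n₀⁻¹ := by rw [← e1]; group
      rw [this]; group
    have h1 : u'⁻¹ * u ∈ uniGroup (lvl D) 1 ⊓ triGroup (F := F) (lvlM D) := by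
      refine ⟨posUnipotent_le_uni hS (Subgroup.mul_mem _ (Subgroup.inv_mem _ hu') hu), ?_⟩
      rw [e2]
      exact nWU_conj_borel_le hP hV w hW _ (Subgroup.mul_mem _ hb' (Subgroup.inv_mem _ hb))
    rw [uni_inf_triM, Subgroup.mem_bot] at h1
    have huu : u = u' := by
      have : u = u' * (u'⁻¹ * u) := by group
      rw [this, h1, mul_one]
    subst huu
    have hbb : b = b' := mul_left_cancel e1
    subst hbb
    rfl
  have hsurj : Function.Surjective f := by
    rintro ⟨x, b₁, hb₁, b₂, hb₂, rfl⟩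
    obtain ⟨u, hu, h, hh, rfl⟩ := exists_mul_of_mem_sup _ _ hnorm b₁ hb₁
    have h1 : n₀⁻¹ * h * n₀ ∈ D.diagonalSubgroup F := by
      have := (Subgroup.mem_normalizer_iff.mp
        (monomial_le_normalizer_diag hS hP.semN hT hP.etaNeg (Subgroup.inv_mem _ hn₀N)) h).mp hh
      rwa [inv_inv] at this
    refine ⟨(⟨u, hu⟩, ⟨(n₀⁻¹ * h * n₀) * b₂,
      Subgroup.mul_mem _ ((le_sup_right : D.diagonalSubgroup F ≤ _) h1) hb₂⟩), ?_⟩
    apply Subtype.ext
    show u * n₀ * ((n₀⁻¹ * h * n₀) * b₂) = u * h * n₀ * b₂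
    group
  have hc1 : Nat.card ↥(D.posUnipotent F) * Nat.card ↥(D.borelSubgroup F) =
      Nat.card ↥(D.borelSubgroup F) * Nat.card F ^ numPos D := by
    rw [← Nat.card_prod, Nat.card_congr (Equiv.ofBijective f ⟨hinj, hsurj⟩), hn₀,
      card_dcB_word hP w hW.lt, invN_w0 hT w hW]
  have hBpos : 0 < Nat.card ↥(D.borelSubgroup F) := Nat.card_pos
  rw [mul_comm] at hc1
  exact Nat.eq_of_mul_eq_mul_left hBpos hc1

/-- **S2123-E6SYL.** -/
theorem e6Syl : StE6Syl.{u} := by
  intro F _ _ p hp _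
  have hS := packS_E6 F
  have hP := hS.hP
  obtain ⟨⟨f, hf0⟩, -, hf⟩ := FiniteField.card F p
  simp only [PNat.mk_coe] at hf
  have hcU : Nat.card ↥((chevE6.posUnipotent F).subgroupOf (chevE6.group F)) = p ^ (f * 36) := by
    rw [Nat.card_congr (Subgroup.subgroupOfEquivOfLe (posUnipotent_le_group hP.sem)).toEquiv,
      syl_card_posUnipotent hP hS.hV w0E6 hS.hW, numPos_E6, Nat.card_eq_fintype_card, hf, pow_mul]
  have hq1 : 1 ≤ Fintype.card F := Fintype.card_pos
  have hpq : p ∣ Fintype.card F := by rw [hf]; exact dvd_pow_self p hf0.ne'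
  apply syl_of_card_mul p _ (f * 36) (Nat.gcd 3 (Fintype.card F - 1))
    (([2, 5, 6, 8, 9, 12].map fun d => Fintype.card F ^ d - 1).prod) hcU
  · rw [order_E6 rfl, pow_mul, ← hf]
    simp only [List.map_cons, List.map_nil, List.prod_cons, List.prod_nil, mul_one, mul_assoc]
  · exact syl_not_dvd_prod p (Fintype.card F) hp.out hpq hq1 _ (by decide)

example : StE6Syl.{u} := e6Syl

end Cfsg.Agent.H36.StbG

#print axioms Cfsg.Agent.H36.StbG.e6Syl
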