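import Mathlib

/-!
# S5965-COMB (helper36, for helper99's team project S5965)

For `r = 3` or `r = 5`: a family of `r` `r`-th roots of unity with product one can be shifted by a
power of `ζ` so that its multiset of values is closed under inversion.
-/

set_option autoImplicit false

namespace Cfsg.Agent.H36.Sub

theorem symm_core3 : ∀ a0 < 3, ∀ a1 < 3, ∀ a2 < 3, (a0 + a1 + a2) % 3 = 0 →
    ∃ j < 3, ∀ t < 3,
      ((if (j + a0) % 3 = t then 1 else 0) + (if (j + a1) % 3 = t then 1 else 0)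
        + (if (j + a2) % 3 = t then 1 else 0) : ℕ)
      = (if (j + a0 + t) % 3 = 0 then 1 else 0) + (if (j + a1 + t) % 3 = 0 then 1 else 0)
        + (if (j + a2 + t) % 3 = 0 then 1 else 0) := by
  decide +kernel

set_option synthInstance.maxHeartbeats 400000 in
set_option synthInstance.maxSize 4096 in
set_option maxRecDepth 100000 in
theorem symm_core5 : ∀ a0 < 5, ∀ a1 < 5, ∀ a2 < 5, ∀ a3 < 5, ∀ a4 < 5,
    (a0 + a1 + a2 + a3 + a4) % 5 = 0 →
    ∃ j < 5, ∀ t < 5,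
      ((if (j + a0) % 5 = t then 1 else 0) + (if (j + a1) % 5 = t then 1 else 0)
        + (if (j + a2) % 5 = t then 1 else 0) + (if (j + a3) % 5 = t then 1 else 0)
        + (if (j + a4) % 5 = t then 1 else 0) : ℕ)
      = (if (j + a0 + t) % 5 = 0 then 1 else 0) + (if (j + a1 + t) % 5 = 0 then 1 else 0)
        + (if (j + a2 + t) % 5 = 0 then 1 else 0) + (if (j + a3 + t) % 5 = 0 then 1 else 0)
        + (if (j + a4 + t) % 5 = 0 then 1 else 0) := by
  decide +kernel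

theorem symm_core3' (a : Fin 3 → ℕ) (ha : ∀ i, a i < 3) (hs : (∑ i, a i) % 3 = 0) :
    ∃ j < 3, ∀ t < 3,
      (Finset.univ.filter fun i => (j + a i) % 3 = t).card
        = (Finset.univ.filter fun i => (j + a i + t) % 3 = 0).card := by
  rw [Fin.sum_univ_three] at hs
  obtain ⟨j, hj, h⟩ := symm_core3 (a 0) (ha 0) (a 1) (ha 1) (a 2) (ha 2) hs
  refine ⟨j, hj, fun t ht => ?_⟩
  rw [Finset.card_filter, Finset.card_filter, Fin.sum_univ_three, Fin.sum_univ_three]
  exact h t ht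

theorem symm_core5' (a : Fin 5 → ℕ) (ha : ∀ i, a i < 5) (hs : (∑ i, a i) % 5 = 0) :
    ∃ j < 5, ∀ t < 5,
      (Finset.univ.filter fun i => (j + a i) % 5 = t).card
        = (Finset.univ.filter fun i => (j + a i + t) % 5 = 0).card := by
  rw [Fin.sum_univ_five] at hs
  obtain ⟨j, hj, h⟩ :=
    symm_core5 (a 0) (ha 0) (a 1) (ha 1) (a 2) (ha 2) (a 3) (ha 3) (a 4) (ha 4) hs
  refine ⟨j, hj, fun t ht => ?_⟩
  rw [Finset.card_filter, Finset.card_filter, Fin.sum_univ_five, Fin.sum_univ_five]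
  exact h t ht

/-- The reduction of the statement to a statement on exponents. -/
theorem symm_shift_glue {F : Type*} [Field F] (r : ℕ) (hr : r.Prime) (ζ : F)
    (hζ : ζ ^ r = 1) (hζ1 : ζ ≠ 1) (d : Fin r → F) (hd : ∀ i, d i ^ r = 1)
    (hprod : ∏ i, d i = 1)
    (core : ∀ a : Fin r → ℕ, (∀ i, a i < r) → (∑ i, a i) % r = 0 → ∃ j < r, ∀ t < r,
      (Finset.univ.filter fun i => (j + a i) % r = t).card
        = (Finset.univ.filter fun i => (j + a i + t) % r = 0).card) :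
    ∃ j : ℕ, ∀ ν : F, Nat.card {i // ζ ^ j * d i = ν} = Nat.card {i // ζ ^ j * d i = ν⁻¹} := by
  classical
  have : Fact r.Prime := ⟨hr⟩
  have : NeZero r := ⟨hr.ne_zero⟩
  have hord : orderOf ζ = r := orderOf_eq_prime hζ hζ1
  have hprim : IsPrimitiveRoot ζ r := by rw [← hord]; exact IsPrimitiveRoot.orderOf ζ
  have hζ0 : ζ ≠ 0 := by
    rintro rfl
    rw [zero_pow hr.ne_zero] at hζ
    exact zero_ne_one hζ
  have hex : ∀ x : F, x ^ r = 1 → ∃ k < r, ζ ^ k = x :=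
    fun x hx => hprim.eq_pow_of_pow_eq_one hx
  choose a ha ha' using fun i => hex (d i) (hd i)
  have hpow : ∀ m m' : ℕ, ζ ^ m = ζ ^ m' ↔ m % r = m' % r := by
    intro m m'
    have hm : ∀ k : ℕ, ζ ^ (k % r) = ζ ^ k := by
      intro k
      have := pow_mod_orderOf ζ k
      rwa [hord] at this
    constructor
    · intro h
      rw [← hm m, ← hm m'] at h
      exact hprim.pow_inj (Nat.mod_lt _ hr.pos) (Nat.mod_lt _ hr.pos) h
    · intro h
      rw [← hm m, ← hm m', h]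
  have hsum : (∑ i, a i) % r = 0 := by
    have h1 : ζ ^ (∑ i, a i) = 1 := by
      rw [← Finset.prod_pow_eq_pow_sum]; simp only [ha']; exact hprod
    have h2 := (hpow (∑ i, a i) 0).mp (by rw [h1, pow_zero])
    simpa using h2
  obtain ⟨j, hj, hcore⟩ := core a ha hsum
  refine ⟨j, fun ν => ?_⟩
  by_cases hν : ν ^ r = 1
  · obtain ⟨t, ht, rfl⟩ := hex ν hν
    have e1 : ∀ i, (ζ ^ j * d i = ζ ^ t) ↔ (j + a i) % r = t := by
      intro i
      rw [← ha' i, ← pow_add, hpow, Nat.mod_eq_of_lt ht]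
    have e2 : ∀ i, (ζ ^ j * d i = (ζ ^ t)⁻¹) ↔ (j + a i + t) % r = 0 := by
      intro i
      rw [← ha' i, ← pow_add, ← mul_eq_one_iff_eq_inv₀ (pow_ne_zero _ hζ0), ← pow_add]
      have h0 := hpow (j + a i + t) 0
      rw [pow_zero, Nat.zero_mod] at h0
      exact h0
    rw [Nat.card_eq_fintype_card, Nat.card_eq_fintype_card, Fintype.card_subtype,
      Fintype.card_subtype]
    have f1 : (Finset.univ.filter fun i => ζ ^ j * d i = ζ ^ t)
        = (Finset.univ.filter fun i => (j + a i) % r = t) :=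
      Finset.filter_congr (fun i _ => e1 i)
    have f2 : (Finset.univ.filter fun i => ζ ^ j * d i = (ζ ^ t)⁻¹)
        = (Finset.univ.filter fun i => (j + a i + t) % r = 0) :=
      Finset.filter_congr (fun i _ => e2 i)
    rw [f1, f2]
    exact hcore t ht
  · have hpw : ∀ i, (ζ ^ j * d i) ^ r = 1 := by
      intro i
      rw [mul_pow, ← pow_mul, mul_comm j r, pow_mul, hζ, one_pow, hd i, mul_one]
    have h1 : IsEmpty {i // ζ ^ j * d i = ν} := ⟨fun ⟨i, hi⟩ => hν (by rw [← hi]; exact hpw i)⟩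
    have h2 : IsEmpty {i // ζ ^ j * d i = ν⁻¹} := ⟨fun ⟨i, hi⟩ => hν (by
      have h3 : ν⁻¹ ^ r = 1 := by rw [← hi]; exact hpw i
      rw [inv_pow] at h3
      exact inv_eq_one.mp h3)⟩
    rw [Nat.card_of_isEmpty, Nat.card_of_isEmpty]

theorem exists_symm_shift {F : Type*} [Field F] (r : ℕ) (hr35 : r = 3 ∨ r = 5) (ζ : F)
    (hζ : ζ ^ r = 1) (hζ1 : ζ ≠ 1) (d : Fin r → F) (hd : ∀ i, d i ^ r = 1)
    (hprod : ∏ i, d i = 1) :
    ∃ j : ℕ, ∀ ν : F, Nat.card {i // ζ ^ j * d i = ν} = Nat.card {i // ζ ^ j * d i = ν⁻¹} := by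
  rcases hr35 with rfl | rfl
  · exact symm_shift_glue 3 (by norm_num) ζ hζ hζ1 d hd hprod symm_core3'
  · exact symm_shift_glue 5 (by norm_num) ζ hζ hζ1 d hd hprod symm_core5'

end Cfsg.Agent.H36.Sub

section check
example {F : Type*} [Field F] (r : ℕ) (hr35 : r = 3 ∨ r = 5) (ζ : F)
    (hζ : ζ ^ r = 1) (hζ1 : ζ ≠ 1) (d : Fin r → F) (hd : ∀ i, d i ^ r = 1)
    (hprod : ∏ i, d i = 1) :
    ∃ j : ℕ, ∀ ν : F, Nat.card {i // ζ ^ j * d i = ν} = Nat.card {i // ζ ^ j * d i = ν⁻¹} :=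
  Cfsg.Agent.H36.Sub.exists_symm_shift r hr35 ζ hζ hζ1 d hd hprod
end check

#print axioms Cfsg.Agent.H36.Sub.exists_symm_shift
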