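import Mathlib
import Cfsg.Prelude.Def_GeometricClasses

/-!
# S5965-IDX1 (helper36, for helper99's team project S5965)

If `r` divides the index of the subfield subgroup in `SL_n(F)`, then the `r`-part of `|GL_n(F₀)|`
is smaller than that of `|GL_n(F)|`.
-/

set_option autoImplicit false

open scoped MatrixGroups

namespace Cfsg.Agent.H36.Sub

/-- For a normal subgroup `S` and any subgroup `N` of a finite group, `[S : N ∩ S] = [N S : N]`. -/
theorem relIndex_eq_relIndex_sup_of_normal {G : Type*} [Group G] [Finite G] (N S : Subgroup G)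
    [hS : S.Normal] : N.relIndex S = N.relIndex (N ⊔ S) := by
  have h1 : Nat.card N * N.relIndex (N ⊔ S) = Nat.card (N ⊔ S : Subgroup G) := by
    have h := Subgroup.relIndex_mul_relIndex (⊥ : Subgroup G) N (N ⊔ S) bot_le le_sup_left
    rw [Subgroup.relIndex_bot_left, Subgroup.relIndex_bot_left] at h
    exact h
  have h2 : Nat.card S * S.relIndex (N ⊔ S) = Nat.card (N ⊔ S : Subgroup G) := by
    have h := Subgroup.relIndex_mul_relIndex (⊥ : Subgroup G) S (N ⊔ S) bot_le le_sup_right
    rw [Subgroup.relIndex_bot_left, Subgroup.relIndex_bot_left] at h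
    exact h
  rw [Subgroup.relIndex_sup_right] at h2
  have h3 : Nat.card (N ⊓ S : Subgroup G) * S.relIndex N = Nat.card N := by
    have h := Subgroup.relIndex_mul_relIndex (⊥ : Subgroup G) (N ⊓ S) N bot_le inf_le_left
    rw [Subgroup.relIndex_bot_left, Subgroup.relIndex_bot_left, Subgroup.inf_relIndex_left] at h
    exact h
  have h4 : Nat.card (N ⊓ S : Subgroup G) * N.relIndex S = Nat.card S := by
    have h := Subgroup.relIndex_mul_relIndex (⊥ : Subgroup G) (N ⊓ S) S bot_le inf_le_right
    rw [Subgroup.relIndex_bot_left, Subgroup.relIndex_bot_left, Subgroup.inf_relIndex_right] at h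
    exact h
  have hN : 0 < Nat.card N := Nat.card_pos
  have h5 : Nat.card N * N.relIndex (N ⊔ S) = Nat.card N * N.relIndex S := by
    rw [h1, ← h2, ← h4, ← h3]; ring
  exact (Nat.eq_of_mul_eq_mul_left hN h5).symm

/-- The index of the preimage of `N` under a homomorphism with normal range divides the index
of `N`. -/
theorem index_comap_dvd_index_of_normal_range {G G' : Type*} [Group G] [Finite G] [Group G']
    (f : G' →* G) (hf : f.range.Normal) (N : Subgroup G) : (N.comap f).index ∣ N.index := by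
  rw [Subgroup.index_comap, relIndex_eq_relIndex_sup_of_normal N f.range]
  exact Subgroup.relIndex_dvd_index_of_le le_sup_left

variable {F : Type*} [Field F] [Fintype F]

omit [Fintype F] in
theorem toGL_range_normal (n : ℕ) :
    (Matrix.SpecialLinearGroup.toGL :
      Matrix.SpecialLinearGroup (Fin n) F →* GL (Fin n) F).range.Normal := by
  have hmem : ∀ g : GL (Fin n) F, g ∈ (Matrix.SpecialLinearGroup.toGL :
      Matrix.SpecialLinearGroup (Fin n) F →* GL (Fin n) F).range ↔
        (g : Matrix (Fin n) (Fin n) F).det = 1 := by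
    intro g
    constructor
    · rintro ⟨s, rfl⟩
      exact s.2
    · intro h
      exact ⟨⟨(g : Matrix (Fin n) (Fin n) F), h⟩, Units.ext rfl⟩
  refine ⟨fun s hs g => ?_⟩
  rw [hmem] at hs ⊢
  simp only [Units.val_mul, Matrix.det_mul, hs, mul_one]
  rw [← Matrix.det_mul, ← Units.val_mul, mul_inv_cancel, Units.val_one, Matrix.det_one]

theorem val_lt_of_dvd_index (F₀ : Subfield F) (n r : ℕ) (hr : r.Prime)
    (hΩ : r ∣ ((Cfsg.Geo.subfieldSubgroup F₀ 1).comap
      (Matrix.SpecialLinearGroup.toGL :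
        Matrix.SpecialLinearGroup (Fin n) F →* GL (Fin n) F)).index) :
    padicValNat r (∏ i : Fin n, (Nat.card ↥F₀ ^ n - Nat.card ↥F₀ ^ (i : ℕ)))
      < padicValNat r (∏ i : Fin n, (Fintype.card F ^ n - Fintype.card F ^ (i : ℕ))) := by
  classical
  have : Fact r.Prime := ⟨hr⟩
  have : Fintype ↥F₀ := Fintype.ofFinite ↥F₀
  set G₀ : Subgroup (GL (Fin n) F) :=
    (Matrix.GeneralLinearGroup.map (F₀.subtype : ↥F₀ →+* F)).range with hG₀
  -- `G₀ ≤ N`
  have hle : G₀ ≤ Cfsg.Geo.subfieldSubgroup F₀ (1 : GL (Fin n) F) := by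
    intro x hx
    exact Subgroup.mem_map.mpr ⟨x, Subgroup.mem_sup_left hx, by simp⟩
  -- `r ∣ [GL : G₀]`
  have h1 : r ∣ (Cfsg.Geo.subfieldSubgroup F₀ (1 : GL (Fin n) F)).index :=
    hΩ.trans (index_comap_dvd_index_of_normal_range _ (toGL_range_normal n) _)
  have h2 : r ∣ G₀.index := h1.trans (Subgroup.index_dvd_of_le hle)
  -- cardinalities
  have hinj : Function.Injective (Matrix.GeneralLinearGroup.map (n := Fin n)
      (F₀.subtype : ↥F₀ →+* F)) := by
    intro a b hab
    apply Units.ext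
    ext i j
    have h := congrArg (fun g : GL (Fin n) F => (g : Matrix (Fin n) (Fin n) F) i j) hab
    simp only [Matrix.GeneralLinearGroup.map_apply] at h
    exact h
  have hc0 : Nat.card G₀ = Nat.card (GL (Fin n) ↥F₀) :=
    (Nat.card_congr (MonoidHom.ofInjective hinj).toEquiv).symm
  have hA : Nat.card (GL (Fin n) F) =
      ∏ i : Fin n, (Fintype.card F ^ n - Fintype.card F ^ (i : ℕ)) := Matrix.card_GL_field n
  have hB : Nat.card (GL (Fin n) ↥F₀) =
      ∏ i : Fin n, (Nat.card ↥F₀ ^ n - Nat.card ↥F₀ ^ (i : ℕ)) := by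
    rw [Matrix.card_GL_field n, Nat.card_eq_fintype_card]
  have hmul : Nat.card G₀ * G₀.index = Nat.card (GL (Fin n) F) := Subgroup.card_mul_index G₀
  rw [← hA, ← hB, ← hc0, ← hmul]
  have hpos : 0 < Nat.card (GL (Fin n) F) := Nat.card_pos
  have hG₀pos : Nat.card G₀ ≠ 0 := Nat.card_pos.ne'
  have hidx : G₀.index ≠ 0 := by
    intro h; rw [h, mul_zero] at hmul; omega
  rw [padicValNat.mul hG₀pos hidx]
  have := one_le_padicValNat_of_dvd hidx h2
  omega

end Cfsg.Agent.H36.Sub

section check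
variable {F : Type*} [Field F] [Fintype F]
example (F₀ : Subfield F) (n r : ℕ) (hr : r.Prime)
    (hΩ : r ∣ ((Cfsg.Geo.subfieldSubgroup F₀ 1).comap
      (Matrix.SpecialLinearGroup.toGL :
        Matrix.SpecialLinearGroup (Fin n) F →* GL (Fin n) F)).index) :
    padicValNat r (∏ i : Fin n, (Nat.card ↥F₀ ^ n - Nat.card ↥F₀ ^ (i : ℕ)))
      < padicValNat r (∏ i : Fin n, (Fintype.card F ^ n - Fintype.card F ^ (i : ℕ))) :=
  Cfsg.Agent.H36.Sub.val_lt_of_dvd_index F₀ n r hr hΩ
end check

#print axioms Cfsg.Agent.H36.Sub.val_lt_of_dvd_index
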