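import Cfsg.Agent.H77.TqDefs
import Cfsg.Agent.H98.TenSQ

/-!
# S5978-ARANK (helper36 for helper77): an involution of `Ω(Q)` has `rank (x - 1)` even
-/

set_option autoImplicit false
open scoped MatrixGroups

namespace Cfsg.Agent.H36.Tq

universe u

/-- For an involution in characteristic `≠ 2`, `range (y - 1) = ker (y + 1)`. -/
theorem range_sub_one_eq_ker_add_one {F : Type*} [Field F] (h2 : (2 : F) ≠ 0) {n : Type*}
    [Fintype n] [DecidableEq n] (y : Matrix n n F) (hy : y * y = 1) :
    LinearMap.range (Matrix.toLin' (y - 1)) = LinearMap.ker (Matrix.toLin' (y + 1)) := by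
  apply le_antisymm
  · rintro _ ⟨v, rfl⟩
    rw [LinearMap.mem_ker, ← LinearMap.comp_apply, ← Matrix.toLin'_mul]
    have h0 : (y + 1) * (y - 1) = 0 := by
      rw [add_mul, mul_sub, mul_sub, hy]; simp
    rw [h0]; simp
  · intro v hv
    rw [LinearMap.mem_ker, Matrix.toLin'_apply, Matrix.add_mulVec, Matrix.one_mulVec] at hv
    refine ⟨(-(2 : F)⁻¹) • v, ?_⟩
    rw [Matrix.toLin'_apply, Matrix.sub_mulVec, Matrix.one_mulVec, Matrix.mulVec_smul]
    have hyv : y.mulVec v = -v := eq_neg_of_add_eq_zero_left hv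
    rw [hyv]
    ext i
    simp only [Pi.sub_apply, Pi.smul_apply, Pi.neg_apply, smul_eq_mul]
    field_simp
    ring

/-- S5978-ARANK: an involution of `Ω` has `rank (x - 1)` even. -/
theorem aRank : Cfsg.Agent.H77.Tq.StARank.{u} := by
  intro F _ _ ι _ _ Q h2 x hx hxx
  classical
  -- `det x = 1` on the commutator subgroup
  have hdet : (x : Matrix ι ι F).det = 1 := by
    unfold Cfsg.Geo.omegaGL at hx
    obtain ⟨y, hy, rfl⟩ := hx
    let δ : ↥(Cfsg.isometryGroup F ⇑Q) →* Fˣ :=
      Matrix.GeneralLinearGroup.det.comp (Cfsg.isometryGroup F ⇑Q).subtype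
    have h1 : y ∈ δ.ker := Abelianization.commutator_subset_ker δ hy
    have h2' : δ y = 1 := MonoidHom.mem_ker.1 h1
    have h3 := congrArg Units.val h2'
    simpa [δ] using h3
  set e := Fintype.equivFin ι with he
  set y : Matrix (Fin (Fintype.card ι)) (Fin (Fintype.card ι)) F :=
    (x : Matrix ι ι F).submatrix e.symm e.symm with hy
  have hyy : y * y = 1 := by
    rw [hy, Matrix.submatrix_mul_equiv, hxx, Matrix.submatrix_one_equiv]
  have hdy : y.det = 1 := by rw [hy, Matrix.det_submatrix_equiv_self, hdet]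
  have hrk : (y - 1).rank = ((x : Matrix ι ι F) - 1).rank := by
    have h0 : y - 1 = ((x : Matrix ι ι F) - 1).submatrix e.symm e.symm := by
      ext i j
      simp [hy, Matrix.one_apply]
    rw [h0, Matrix.rank_submatrix]
  have hfin : Module.finrank F (LinearMap.ker (Matrix.toLin' (y + 1))) = (y - 1).rank := by
    rw [← range_sub_one_eq_ker_add_one h2 y hyy]
    rfl
  have h := Cfsg.Agent.H98.Ten.det_involution h2 y hyy
  rw [hdy, hfin, hrk] at h
  have hne : (-1 : F) ≠ 1 := by
    intro h1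
    apply h2
    have h3 : (2 : F) = 1 + 1 := by norm_num
    rw [h3]
    nth_rewrite 1 [← h1]
    exact neg_add_cancel 1
  exact (neg_one_pow_eq_one_iff_even hne).1 h.symm

example : Cfsg.Agent.H77.Tq.StARank.{u} := aRank

end Cfsg.Agent.H36.Tq

#print axioms Cfsg.Agent.H36.Tq.aRank
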