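import Cfsg.Agent.H77.TqDefs
import Cfsg.Agent.H49.CD
import Cfsg.Agent.H49.Invol

/-!
# S5978-SQ (helper36 for helper77): squares and odd-order elements of `O(Q)` lie in `Ω(Q)`
-/

set_option autoImplicit false
open scoped MatrixGroups

namespace Cfsg.Agent.H36.Tq

open Cfsg.Agent.H49

universe u

/-- S5978-SQMEM: squares of isometries lie in `Ω`. -/
theorem sqMem : Cfsg.Agent.H77.Tq.StSqMem.{u} := by
  intro F _ _ ι _ _ Q h2 hQ g hg
  have hinv : ∀ s ∈ reflSet Q, s * s = 1 := by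
    rintro s ⟨v, -, rfl⟩
    exact reflG_mul_self Q v
  have h := sq_mem_commutator (reflSet Q) hinv (closure_reflSet_eq_top Q h2 hQ)
    (⟨g, hg⟩ : ↥(Cfsg.isometryGroup F ⇑Q))
  unfold Cfsg.Geo.omegaGL
  exact ⟨_, h, rfl⟩

/-- S5978-ODDMEM: isometries of odd order lie in `Ω`. -/
theorem oddMem : Cfsg.Agent.H77.Tq.StOddMem.{u} := by
  intro F _ _ ι _ _ Q h2 hQ g r hg hr hgr
  obtain ⟨k, rfl⟩ := hr
  have h := sqMem F ι Q h2 hQ (g ^ (k + 1)) ((Cfsg.isometryGroup F ⇑Q).pow_mem hg _)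
  have e : g ^ (k + 1) * g ^ (k + 1) = g := by
    rw [← pow_add]
    have : k + 1 + (k + 1) = (2 * k + 1) + 1 := by ring
    rw [this, pow_succ, hgr, one_mul]
  rwa [e] at h

example : Cfsg.Agent.H77.Tq.StSqMem.{u} := sqMem
example : Cfsg.Agent.H77.Tq.StOddMem.{u} := oddMem

end Cfsg.Agent.H36.Tq

#print axioms Cfsg.Agent.H36.Tq.sqMem
#print axioms Cfsg.Agent.H36.Tq.oddMem
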